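import Cfsg.Agent.Lib.IsaacsCorr.Magic

/-!
# The twisted restriction of a character

For the inverting involution `j` the function `h ↦ χ (h * j)` on `H` is plus or minus an
irreducible character, congruent to the restriction of `χ` modulo two.
-/

set_option autoImplicit false
set_option linter.style.haveILetI false
set_option linter.unusedSectionVars false

open scoped ComplexConjugate
open Cfsg CfsgLib.CharTheory CfsgLib.Frobenius MonoidAlgebra Module

namespace CfsgLib.IsaacsCorr

variable {V W : Type*} [AddCommGroup V] [Module ℂ V] [FiniteDimensional ℂ V] [AddCommGroup W]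
  [Module ℂ W] [FiniteDimensional ℂ W]

/-- `f ↦ A f B`. -/
noncomputable def sand (A : End ℂ W) (B : End ℂ V) : End ℂ (V →ₗ[ℂ] W) where
  toFun f := A ∘ₗ f ∘ₗ B
  map_add' f g := by simp [LinearMap.add_comp, LinearMap.comp_add]
  map_smul' c f := by simp [LinearMap.smul_comp, LinearMap.comp_smul]

theorem sand_apply (A : End ℂ W) (B : End ℂ V) (f : V →ₗ[ℂ] W) :
    sand A B f = A ∘ₗ f ∘ₗ B := rfl

theorem sand_mul (A A' : End ℂ W) (B B' : End ℂ V) :
    sand A B * sand A' B' = sand (A * A') (B' * B) :=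
  LinearMap.ext fun _ => rfl

theorem sand_smul_smul (a b : ℂ) (A : End ℂ W) (B : End ℂ V) :
    sand (a • A) (b • B) = (a * b) • sand A B :=
  LinearMap.ext fun f => by
    simp [sand_apply, LinearMap.smul_comp, LinearMap.comp_smul, smul_smul, mul_comm]

theorem trace_sand (A : End ℂ W) (B : End ℂ V) :
    LinearMap.trace ℂ _ (sand A B) = LinearMap.trace ℂ W A * LinearMap.trace ℂ V B := by
  let e := dualTensorHomEquiv ℂ V W
  have h : sand A B = e.conj (TensorProduct.map B.dualMap A) := by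
    refine LinearMap.ext fun f => ?_
    obtain ⟨t, rfl⟩ := e.surjective f
    rw [LinearEquiv.conj_apply_apply, LinearEquiv.symm_apply_apply]
    induction t using TensorProduct.induction_on with
    | zero => simp
    | tmul f w =>
      refine LinearMap.ext fun v => ?_
      rw [sand_apply, LinearMap.comp_apply, LinearMap.comp_apply,
        show e (f ⊗ₜ[ℂ] w) = dualTensorHom ℂ V W (f ⊗ₜ[ℂ] w) from rfl, TensorProduct.map_tmul,
        show e (B.dualMap f ⊗ₜ[ℂ] A w) = dualTensorHom ℂ V W (B.dualMap f ⊗ₜ[ℂ] A w) from rfl,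
        dualTensorHom_apply, dualTensorHom_apply, map_smul, LinearMap.dualMap_apply]
    | add a b ha hb => simp only [map_add, ha, hb]
  have h1 : LinearMap.trace ℂ (Module.Dual ℂ V) B.dualMap = LinearMap.trace ℂ V B :=
    LinearMap.trace_transpose' B
  rw [h, LinearMap.trace_conj', LinearMap.trace_tensorProduct', h1, mul_comm]

variable {X : Type*} [Group X] [Fintype X]

namespace BaseRep

variable (D : BaseRep X)

/-- A character lying over the base character makes the idempotent act as the identity. -/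
theorem asAlgebraHom_idem_eq_one (ρ : Representation ℂ X V) {a : ℂ}
    (ha : ∀ n : D.N, ρ.character n = a * D.rep.character n) : ρ.asAlgebraHom D.idem = 1 := by
  set P := ρ.asAlgebraHom D.idem with hP
  have hidem : IsIdempotentElem P := by
    rw [IsIdempotentElem, hP, ← map_mul, D.idem_mul_self]
  have htr : LinearMap.trace ℂ V P = (finrank ℂ V : ℂ) := by
    have h1 : classInner D.rep.character D.rep.character = 1 :=
      classInner_self_of_isIrr (isIrrCharacter_character D.rep)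
    rw [classInner_eq_sum_inv (isCharacter_character D.rep)] at h1
    have h2 : (finrank ℂ V : ℂ) = a * D.d := by
      have := ha 1
      simpa using this
    rw [hP, D.idem_eq_sum, map_sum, map_sum, h2]
    calc ∑ n : D.N, LinearMap.trace ℂ V (ρ.asAlgebraHom
          (single (n : X) ((D.d : ℂ) / Nat.card D.N * D.rep.character n⁻¹)))
        = a * D.d * ((Nat.card D.N : ℂ)⁻¹ *
            ∑ n : D.N, D.rep.character n * D.rep.character n⁻¹) := by
          rw [Finset.mul_sum, Finset.mul_sum]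
          refine Finset.sum_congr rfl fun n _ => ?_
          rw [Representation.asAlgebraHom_single, map_smul, smul_eq_mul,
            show LinearMap.trace ℂ V (ρ (n : X)) = a * D.rep.character n from ha n]
          ring
      _ = a * D.d := by rw [h1, mul_one]
  have hproj : LinearMap.IsProj (LinearMap.range P) P :=
    ⟨fun v => LinearMap.mem_range_self P v, fun v hv => by
      obtain ⟨w, rfl⟩ := hv
      exact LinearMap.congr_fun hidem w⟩
  rw [hproj.trace] at htr
  have hdim : finrank ℂ (LinearMap.range P) = finrank ℂ V := by exact_mod_cast htr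
  have htop := Submodule.eq_top_of_finrank_eq hdim
  refine LinearMap.ext fun v => ?_
  exact hproj.map_id v (htop ▸ Submodule.mem_top)

variable {D} {K : Subgroup X} [Fintype K] {H : Subgroup X} [Fintype H]
  {j : MonoidAlgebra ℂ X}

/-- The twisted restriction. -/
noncomputable def delta (ρ : Representation ℂ X V) (H : Subgroup X) (j : MonoidAlgebra ℂ X) :
    H → ℂ := fun h => LinearMap.trace ℂ V (ρ (h : X) * ρ.asAlgebraHom j)

theorem exists_delta_eq (ρ : Representation ℂ X V) (hρ : ρ.asAlgebraHom D.idem = 1)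
    (hjj : j * j = D.idem) (hjH : ∀ h ∈ H, single h 1 * j = j * single h 1) :
    ∃ β : H → ℂ, IsCharacter H β ∧
      ∀ h : H, ρ.character h = delta ρ H j h + 2 * β h := by
  set J := ρ.asAlgebraHom j with hJ
  have hJJ : J * J = 1 := by rw [hJ, ← map_mul, hjj, hρ]
  have hJc : ∀ h : H, ρ (h : X) * J = J * ρ (h : X) := fun h => by
    rw [hJ, ← ρ.asAlgebraHom_single_one, ← map_mul, hjH h h.2, map_mul]
  set Q : End ℂ V := (2 : ℂ)⁻¹ • (1 - J) with hQ
  have hQQ : Q * Q = Q := by
    rw [hQ, smul_mul_smul_comm, sub_mul, mul_sub, mul_sub, one_mul, one_mul, mul_one, hJJ,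
      show (1 : End ℂ V) - J - (J - 1) = (2 : ℂ) • (1 - J) by rw [two_smul]; abel, smul_smul]
    norm_num
  have hQc : ∀ h : H, ρ (h : X) * Q = Q * ρ (h : X) := fun h => by
    rw [hQ, mul_smul_comm, smul_mul_assoc, mul_sub, sub_mul, hJc, mul_one, one_mul]
  let π : V →ₗ[ℂ] LinearMap.range Q := Q.rangeRestrict
  let ι : LinearMap.range Q →ₗ[ℂ] V := (LinearMap.range Q).subtype
  have hιπ : ι ∘ₗ π = Q := LinearMap.ext fun v => rfl
  have hQι : Q ∘ₗ ι = ι := LinearMap.ext fun v => by
    obtain ⟨w, hw⟩ := v.2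
    show Q (v : V) = v
    rw [← hw]
    exact LinearMap.congr_fun hQQ w
  have hπι : π ∘ₗ ι = LinearMap.id := LinearMap.ext fun v => Subtype.ext (by
    exact LinearMap.congr_fun hQι v)
  let σ : Representation ℂ H (LinearMap.range Q) :=
    { toFun := fun h => π ∘ₗ ρ (h : X) ∘ₗ ι
      map_one' := by rw [Subgroup.coe_one, map_one]; exact hπι
      map_mul' := fun a b => by
        refine LinearMap.ext fun v => ?_
        show π (ρ ((a * b : H) : X) (ι v)) = π (ρ (a : X) (ι (π (ρ (b : X) (ι v)))))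
        rw [show ι (π (ρ (b : X) (ι v))) = Q (ρ (b : X) (ι v)) from rfl,
          show Q (ρ (b : X) (ι v)) = ρ (b : X) (ι v) by
            rw [← Module.End.mul_apply, ← hQc, Module.End.mul_apply,
              show Q (ι v) = ι v from LinearMap.congr_fun hQι v],
          Subgroup.coe_mul, map_mul, Module.End.mul_apply] }
  refine ⟨σ.character, isCharacter_character σ, fun h => ?_⟩
  have htr : σ.character h = LinearMap.trace ℂ V (ρ (h : X) * Q) := by
    show LinearMap.trace ℂ _ (π ∘ₗ ρ (h : X) ∘ₗ ι) = _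
    rw [LinearMap.trace_comp_comm', LinearMap.comp_assoc, hιπ]
    rfl
  rw [htr, hQ, mul_smul_comm, mul_sub, mul_one, map_smul, map_sub, smul_eq_mul, delta, hJ]
  unfold Representation.character
  ring

variable (ρ : Representation ℂ X V) (ρ' : Representation ℂ X W)

/-- Conjugation by the unit at `k`. -/
noncomputable def ad (D : BaseRep X) (k : X) : End ℂ (V →ₗ[ℂ] W) :=
  sand (ρ'.asAlgebraHom (D.u k)) (ρ.asAlgebraHom (D.w k))

variable {ρ ρ'}

theorem ad_line {k : X} {x y : MonoidAlgebra ℂ X} (hx : D.IsLine k x) (hy : D.IsLine k⁻¹ y)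
    (hxy : x * y = D.idem) :
    sand (ρ'.asAlgebraHom x) (ρ.asAlgebraHom y) = D.ad ρ ρ' k := by
  obtain ⟨a, rfl⟩ := D.exists_eq_smul_u hx
  have ha : a ≠ 0 := fun h => D.idem_ne_zero (by rw [← hxy, h, zero_smul, zero_mul])
  have hy' : y = a⁻¹ • D.w k := by
    have h := congrArg (D.w k * ·) hxy
    simp only [smul_mul_assoc, mul_smul_comm, ← mul_assoc, D.w_mul_u, hy.idem_mul,
      (D.isLine_w k).mul_idem] at h
    rw [← h, smul_smul, inv_mul_cancel₀ ha, one_smul]
  rw [hy', map_smul, map_smul, sand_smul_smul, mul_inv_cancel₀ ha, one_smul, ad]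

theorem ad_mul (k l : X) : D.ad ρ ρ' k * D.ad ρ ρ' l = D.ad ρ ρ' (k * l) := by
  rw [ad, ad, sand_mul, ← map_mul, ← map_mul]
  refine ad_line ((D.isLine_u k).mul (D.isLine_u l)) ?_ ?_
  · rw [mul_inv_rev]; exact (D.isLine_w l).mul (D.isLine_w k)
  · rw [mul_assoc, ← mul_assoc (D.u l), D.u_mul_w, ← mul_assoc, (D.isLine_u k).mul_idem, D.u_mul_w]

theorem ad_of_mem (hρ : ρ.asAlgebraHom D.idem = 1) (hρ' : ρ'.asAlgebraHom D.idem = 1) {n : X}
    (hn : n ∈ D.N) : D.ad ρ ρ' n = 1 := by
  rw [← ad_line (isLine_idem hn) (isLine_idem (inv_mem hn)) D.idem_mul_self, hρ, hρ']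
  exact LinearMap.ext fun f => rfl

variable (ρ ρ')

/-- The projection on the eigenspace of the units with character `om · m`. -/
noncomputable def pr (D : BaseRep X) (K : Subgroup X) [Fintype K] (m : X) :
    End ℂ (V →ₗ[ℂ] W) :=
  (Nat.card K : ℂ)⁻¹ • ∑ k : K, (D.om k m)⁻¹ • D.ad ρ ρ' k

variable {ρ ρ'}

theorem ad_mul_pr (hK : D.Sec K) {k m : X} (hk : k ∈ K) (hm : m ∈ K) :
    D.ad ρ ρ' k * D.pr ρ ρ' K m = D.om k m • D.pr ρ ρ' K m := by
  simp only [pr, mul_smul_comm, Finset.mul_sum, ad_mul]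
  rw [smul_comm (D.om k m), Finset.smul_sum (r := D.om k m)]
  congr 1
  refine Fintype.sum_equiv (Equiv.mulLeft (⟨k, hk⟩ : K)) _ _ fun l => ?_
  show _ = D.om k m • ((D.om (k * l) m)⁻¹ • D.ad ρ ρ' (k * l))
  rw [hK.om_mul_left hk l.2 hm, smul_smul, mul_inv, ← mul_assoc,
    mul_inv_cancel₀ (D.om_ne_zero (hK.comm k hk m hm)), one_mul]

theorem pr_mul_pr (hK : D.Sec K) (hnd : D.Nondeg K) {a b : X} (ha : a ∈ K) (hb : b ∈ K)
    [Decidable (a⁻¹ * b ∈ D.N)] :
    D.pr ρ ρ' K a * D.pr ρ ρ' K b = if a⁻¹ * b ∈ D.N then D.pr ρ ρ' K b else 0 := by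
  rw [show D.pr ρ ρ' K a = (Nat.card K : ℂ)⁻¹ • ∑ k : K, (D.om k a)⁻¹ • D.ad ρ ρ' k from rfl,
    smul_mul_assoc, Finset.sum_mul, Finset.sum_congr rfl fun (k : K) _ =>
      show (D.om (k : X) a)⁻¹ • D.ad ρ ρ' (k : X) * D.pr ρ ρ' K b
        = D.om (k : X) (a⁻¹ * b) • D.pr ρ ρ' K b by
        rw [smul_mul_assoc, ad_mul_pr hK k.2 hb, smul_smul, hK.om_mul_right k.2 (inv_mem ha) hb,
          hK.om_inv_right k.2 ha],
    ← Finset.sum_smul, smul_smul, hK.sum_om hnd (mul_mem (inv_mem ha) hb)]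
  split_ifs with h
  · rw [inv_mul_cancel₀ (Nat.cast_ne_zero.2 Nat.card_pos.ne'), one_smul]
  · rw [mul_zero, zero_smul]

theorem pr_congr (hK : D.Sec K) {a b : X} (ha : a ∈ K) (hb : b ∈ K) (h : a⁻¹ * b ∈ D.N) :
    D.pr ρ ρ' K b = D.pr ρ ρ' K a := by
  rw [pr, pr]
  congr 1
  refine Finset.sum_congr rfl fun k _ => ?_
  rw [show D.om (k : X) b = D.om (k : X) (a * (a⁻¹ * b)) by rw [mul_inv_cancel_left],
    hK.om_mul_right k.2 ha (mul_mem (inv_mem ha) hb), D.om_of_mem h, mul_one]

theorem sum_pr (hK : D.Sec K) (hnd : D.Nondeg K) (hρ : ρ.asAlgebraHom D.idem = 1)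
    (hρ' : ρ'.asAlgebraHom D.idem = 1) :
    ∑ m : K, D.pr ρ ρ' K m = (Nat.card D.N : ℂ) • 1 := by
  classical
  have h : ∀ k : K, ∑ m : K, (D.om k m)⁻¹
      = if (k : X) ∈ D.N then (Nat.card K : ℂ) else 0 := fun k => by
    rw [← hK.sum_om hnd k.2]
    exact Finset.sum_congr rfl fun m _ => (hK.om_swap k.2 m.2).symm
  simp only [pr, ← Finset.smul_sum]
  rw [Finset.sum_comm, Finset.sum_congr rfl fun (k : K) _ => (Finset.sum_smul
    (f := fun m : K => (D.om k m)⁻¹) (x := D.ad ρ ρ' (k : X)) (s := Finset.univ)).symm,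
    Finset.sum_congr rfl fun (k : K) _ => by rw [h k, ite_smul, zero_smul],
    Finset.sum_ite, Finset.sum_const_zero, add_zero,
    Finset.sum_congr rfl fun k hk => by rw [ad_of_mem hρ hρ' (Finset.mem_filter.1 hk).2],
    Finset.sum_const, ← Nat.cast_smul_eq_nsmul ℂ, smul_smul, smul_smul]
  congr 1
  have hc : (Finset.univ.filter fun k : K => (k : X) ∈ D.N).card = Nat.card D.N := by
    rw [Nat.card_eq_fintype_card, ← Finset.card_univ]
    exact Finset.card_bij' (fun k hk => (⟨k, (Finset.mem_filter.1 hk).2⟩ : D.N))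
      (fun n _ => (⟨n, hK.le n.2⟩ : K)) (fun _ _ => Finset.mem_univ _)
      (fun n _ => Finset.mem_filter.2 ⟨Finset.mem_univ _, n.2⟩) (fun _ _ => rfl) (fun _ _ => rfl)
  rw [hc]
  have : (Nat.card K : ℂ) ≠ 0 := Nat.cast_ne_zero.2 Nat.card_pos.ne'
  field_simp

/-- The action of a group element on linear maps. -/
theorem conj_mul_ad (h : X) (k : X) :
    (sand (ρ' h) (ρ h⁻¹) : End ℂ (V →ₗ[ℂ] W)) * D.ad ρ ρ' k
      = D.ad ρ ρ' (h * k * h⁻¹) * sand (ρ' h) (ρ h⁻¹) := by
  have hl : ∀ {l : X} {x : MonoidAlgebra ℂ X}, D.IsLine l x →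
      D.IsLine (h * l * h⁻¹) (single h 1 * x * single h⁻¹ 1) := fun {l x} hx => by
    rw [← map_conj_eq]
    simpa using (D.baseMap_conj h).map_isLine hx
  have hcancel : ∀ z : MonoidAlgebra ℂ X, single h⁻¹ 1 * (single h 1 * z) = z := fun z => by
    rw [← mul_assoc, single_mul_single, inv_mul_cancel, one_mul, ← one_def, one_mul]
  rw [← ad_line (hl (D.isLine_u k)) (by
      have := hl (D.isLine_w k)
      rwa [show h * k⁻¹ * h⁻¹ = (h * k * h⁻¹)⁻¹ by group] at this) (by
      simp only [mul_assoc, hcancel]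
      rw [← mul_assoc (D.u k) (D.w k), D.u_mul_w, ← mul_assoc (single h 1), D.single_mul_idem,
        mul_assoc, single_mul_single, mul_inv_cancel, one_mul, ← one_def, mul_one])]
  rw [ad, sand_mul, sand_mul, ← ρ'.asAlgebraHom_single_one, ← ρ.asAlgebraHom_single_one,
    ← map_mul, ← map_mul, ← map_mul, ← map_mul]
  congr 1
  · congr 1
    simp only [mul_assoc]
    rw [single_mul_single, inv_mul_cancel, one_mul, ← one_def, mul_one]
  · congr 1
    simp only [mul_assoc, hcancel]

theorem Rel.conj_mul_ad (hj : Rel D K j) {k : X} (hk : k ∈ K) :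
    sand (ρ'.asAlgebraHom j) (ρ.asAlgebraHom j) * D.ad ρ ρ' k
      = D.ad ρ ρ' k⁻¹ * sand (ρ'.asAlgebraHom j) (ρ.asAlgebraHom j) := by
  obtain ⟨c, hc0, h1, h2⟩ := hj.scalars hk
  have hju : j * D.u k = c • (D.w k * j) := by
    rw [h2, smul_smul, mul_inv_cancel₀ hc0, one_smul]
  have hinv : D.ad ρ ρ' k⁻¹ = sand (ρ'.asAlgebraHom (D.w k)) (ρ.asAlgebraHom (D.u k)) :=
    (ad_line (D.isLine_w k) (by rw [inv_inv]; exact D.isLine_u k) (D.w_mul_u k)).symm
  rw [hinv, ad, sand_mul, sand_mul, ← map_mul, ← map_mul, ← map_mul, ← map_mul, hju,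
    map_smul, map_smul]
  exact LinearMap.ext fun f => by simp [sand_apply, LinearMap.smul_comp, LinearMap.comp_smul]

theorem ad_pr_one (hK : D.Sec K) {k : X} (hk : k ∈ K) :
    D.ad ρ ρ' k * D.pr ρ ρ' K 1 = D.pr ρ ρ' K 1 := by
  rw [ad_mul_pr hK hk (one_mem _), D.om_of_mem (one_mem _), one_smul]

theorem mem_of_conj_inv (hodd : Odd (Nat.card X)) {N : Subgroup X} [N.Normal] {h m : X}
    (hm : m * (h * m * h⁻¹) ∈ N) : m ∈ N := by
  set a : X ⧸ N := QuotientGroup.mk h
  set b : X ⧸ N := QuotientGroup.mk m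
  obtain ⟨i, hi⟩ := hodd
  have hpow : ∀ z : X, (QuotientGroup.mk z : X ⧸ N) ^ (2 * i + 1) = 1 := fun z => by
    rw [← hi, ← QuotientGroup.mk_pow, pow_card_eq_one', QuotientGroup.mk_one]
  have hab : a * b * a⁻¹ = b⁻¹ := by
    refine eq_inv_of_mul_eq_one_right ?_
    rw [← QuotientGroup.mk_inv, ← QuotientGroup.mk_mul, ← QuotientGroup.mk_mul,
      ← QuotientGroup.mk_mul, QuotientGroup.eq_one_iff]
    exact hm
  have hcomm : Commute (a ^ 2) b := by
    have h2 : a * b⁻¹ * a⁻¹ = b := by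
      have := congrArg (·⁻¹) hab
      simpa [mul_assoc] using this
    rw [Commute, SemiconjBy, pow_two]
    calc a * a * b = a * (a * b * a⁻¹) * a⁻¹ * (a * a) := by group
      _ = b * (a * a) := by rw [hab, h2]
  have hca : Commute a b := by
    have h3 : a = ((a ^ 2) ^ i)⁻¹ := by
      refine eq_inv_of_mul_eq_one_right ?_
      rw [← pow_mul, ← pow_succ]
      exact hpow h
    rw [h3]
    exact (hcomm.pow_left i).inv_left
  have hb2 : b ^ 2 = 1 := by
    rw [hca.eq, mul_inv_cancel_right] at hab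
    rw [pow_two]
    nth_rewrite 2 [hab]
    exact mul_inv_cancel b
  have hb : b = 1 := by
    have := hpow m
    rwa [pow_succ, pow_mul, hb2, one_pow, one_mul] at this
  exact (QuotientGroup.eq_one_iff _).1 hb

/-- The norm formula for twisted restrictions. -/
theorem sum_delta_mul (hodd : Odd (Nat.card X)) (hK : D.Sec K) (hnd : D.Nondeg K)
    (hNH : D.N ≤ H) (hKH : ∀ x : X, ∃ k ∈ K, ∃ h ∈ H, x = k * h) (hj : Rel D K j)
    (hjj : j * j = D.idem) (hjH : ∀ h ∈ H, single h 1 * j = j * single h 1)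
    (hρ : ρ.asAlgebraHom D.idem = 1) (hρ' : ρ'.asAlgebraHom D.idem = 1) :
    (Nat.card H : ℂ)⁻¹ * ∑ h : H, delta ρ' H j h * delta ρ H j h⁻¹
      = classInner ρ'.character ρ.character := by
  classical
  set T : End ℂ (V →ₗ[ℂ] W) := sand (ρ'.asAlgebraHom j) (ρ.asAlgebraHom j) with hT
  let hA : X → End ℂ (V →ₗ[ℂ] W) := fun h => sand (ρ' h) (ρ h⁻¹)
  have hTh : ∀ h ∈ H, T * hA h = hA h * T := fun h hh => by
    simp only [hT, hA, sand_mul]
    rw [← ρ'.asAlgebraHom_single_one, ← ρ.asAlgebraHom_single_one, ← map_mul, ← map_mul,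
      ← map_mul, ← map_mul, hjH h hh, ← hjH h⁻¹ (inv_mem hh)]
  have hhA : ∀ g h : X, hA g * hA h = hA (g * h) := fun g h => by
    simp only [hA, sand_mul, ← map_mul, mul_inv_rev]
  have hTpr : ∀ m ∈ K, T * D.pr ρ ρ' K m = D.pr ρ ρ' K m⁻¹ * T := fun m hm => by
    simp only [pr, mul_smul_comm, smul_mul_assoc, Finset.mul_sum, Finset.sum_mul]
    congr 1
    refine Fintype.sum_equiv (Equiv.inv K) _ _ fun k => ?_
    simp only [Equiv.inv_apply, Subgroup.coe_inv]
    rw [hj.conj_mul_ad k.2, hK.om_inv_left k.2 (inv_mem hm), hK.om_inv_right k.2 hm, inv_inv]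
  have hApr : ∀ h : X, ∀ m ∈ K, hA h * D.pr ρ ρ' K m = D.pr ρ ρ' K (h * m * h⁻¹) * hA h :=
    fun h m hm => by
    simp only [pr, mul_smul_comm, smul_mul_assoc, Finset.mul_sum, Finset.sum_mul]
    congr 1
    let e : K ≃ K :=
      { toFun := fun k => ⟨h * k * h⁻¹, hK.normal.conj_mem _ k.2 h⟩
        invFun := fun k => ⟨h⁻¹ * k * h, by simpa using hK.normal.conj_mem _ k.2 h⁻¹⟩
        left_inv := fun k => Subtype.ext (by simp [mul_assoc])
        right_inv := fun k => Subtype.ext (by simp [mul_assoc]) }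
    refine Fintype.sum_equiv e _ _ fun k => ?_
    show _ = (D.om (h * k * h⁻¹) (h * m * h⁻¹))⁻¹ • (D.ad ρ ρ' (h * k * h⁻¹) * hA h)
    rw [hK.om_conj k.2 hm, ← conj_mul_ad]
  -- only the fixed component contributes to the trace
  have htr : ∀ h ∈ H, LinearMap.trace ℂ _ (T * hA h * D.pr ρ ρ' K 1)
      = LinearMap.trace ℂ _ (T * hA h) := by
    intro h _
    have hterm : ∀ m : K, LinearMap.trace ℂ _ (T * hA h * D.pr ρ ρ' K m)
        = if (m : X) ∈ D.N then LinearMap.trace ℂ _ (T * hA h * D.pr ρ ρ' K 1) else 0 := by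
      intro m
      split_ifs with hmN
      · rw [pr_congr hK (one_mem K) m.2 (by simpa using hmN)]
      · have hidem : D.pr ρ ρ' K m * D.pr ρ ρ' K m = D.pr ρ ρ' K m := by
          rw [pr_mul_pr hK hnd m.2 m.2, if_pos (by simp)]
        have hhm : h * m * h⁻¹ ∈ K := hK.normal.conj_mem _ m.2 h
        rw [← hidem, ← mul_assoc, LinearMap.trace_mul_comm, mul_assoc T, hApr h m m.2,
          ← mul_assoc T, hTpr _ hhm, ← mul_assoc, ← mul_assoc,
          pr_mul_pr hK hnd m.2 (inv_mem hhm), if_neg, zero_mul, zero_mul, map_zero]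
        intro hc
        refine hmN (mem_of_conj_inv hodd (h := h) ?_)
        have hc' := D.normal.conj_mem _ (inv_mem hc) (m : X)
        simpa [mul_assoc] using hc'
    have h1 := congrArg (fun z => LinearMap.trace ℂ _ (T * hA h * z))
      (sum_pr (ρ := ρ) (ρ' := ρ') hK hnd hρ hρ')
    simp only [Finset.mul_sum, map_sum, mul_smul_comm, mul_one, map_smul, smul_eq_mul] at h1
    rw [Finset.sum_congr rfl fun m _ => hterm m, Finset.sum_ite, Finset.sum_const_zero, add_zero,
      Finset.sum_const, nsmul_eq_mul,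
      show (Finset.univ.filter fun k : K => (k : X) ∈ D.N).card = Nat.card D.N by
        rw [Nat.card_eq_fintype_card, ← Finset.card_univ]
        exact Finset.card_bij' (fun k hk => (⟨k, (Finset.mem_filter.1 hk).2⟩ : D.N))
          (fun n _ => (⟨n, hK.le n.2⟩ : K)) (fun _ _ => Finset.mem_univ _)
          (fun n _ => Finset.mem_filter.2 ⟨Finset.mem_univ _, n.2⟩) (fun _ _ => rfl)
          (fun _ _ => rfl)] at h1
    exact mul_left_cancel₀ (Nat.cast_ne_zero.2 Nat.card_pos.ne') h1
  -- the projection on intertwining maps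
  set S : End ℂ (V →ₗ[ℂ] W) := (Nat.card H : ℂ)⁻¹ • ∑ h : H, hA h * D.pr ρ ρ' K 1 with hS
  have hSk : ∀ k ∈ K, D.ad ρ ρ' k * S = S := fun k hk => by
    rw [hS, mul_smul_comm, Finset.mul_sum]
    congr 1
    refine Finset.sum_congr rfl fun h _ => ?_
    have h2 : D.ad ρ ρ' k * hA h = hA h * D.ad ρ ρ' ((h : X)⁻¹ * k * h) := by
      simp only [hA]
      rw [conj_mul_ad]
      congr 2
      group
    rw [← mul_assoc, h2, mul_assoc,
      ad_pr_one hK (by simpa using hK.normal.conj_mem _ hk (h : X)⁻¹)]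
  have hSh : ∀ g ∈ H, hA g * S = S := fun g hg => by
    rw [hS, mul_smul_comm, Finset.mul_sum]
    congr 1
    refine Fintype.sum_equiv (Equiv.mulLeft (⟨g, hg⟩ : H)) _ _ fun h => ?_
    rw [← mul_assoc, hhA]
    rfl
  have hcomm_of_inv : ∀ F : V →ₗ[ℂ] W, F ∈ (ρ.linHom ρ').invariants →
      ∀ y : MonoidAlgebra ℂ X, ρ'.asAlgebraHom y ∘ₗ F = F ∘ₗ ρ.asAlgebraHom y := by
    intro F hF y
    induction y using MonoidAlgebra.induction_on with
    | of g =>
      rw [MonoidAlgebra.of_apply, ρ'.asAlgebraHom_single_one, ρ.asAlgebraHom_single_one]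
      have h := hF g
      rw [Representation.linHom_apply] at h
      conv_rhs => rw [← h]
      rw [LinearMap.comp_assoc, LinearMap.comp_assoc, ← Module.End.mul_eq_comp, ← map_mul,
        inv_mul_cancel, map_one]
      rfl
    | add a b ha hb => simp only [map_add, LinearMap.add_comp, LinearMap.comp_add, ha, hb]
    | smul r a ha => simp only [map_smul, LinearMap.smul_comp, LinearMap.comp_smul, ha]
  have hproj : LinearMap.IsProj (ρ.linHom ρ').invariants S := by
    refine ⟨fun f => ?_, fun F hF => ?_⟩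
    · intro x
      rw [Representation.linHom_apply]
      set F := S f with hFdef
      have hH : ∀ g ∈ H, ρ' g ∘ₗ F = F ∘ₗ ρ g := fun g hg => by
        have h : ρ' g ∘ₗ F ∘ₗ ρ g⁻¹ = F := LinearMap.congr_fun (hSh g hg) f
        conv_rhs => rw [← h]
        rw [LinearMap.comp_assoc, LinearMap.comp_assoc, ← Module.End.mul_eq_comp, ← map_mul,
          inv_mul_cancel, map_one]
        rfl
      have hHa : ∀ b : MonoidAlgebra ℂ D.N,
          ρ'.asAlgebraHom (D.inc b) ∘ₗ F = F ∘ₗ ρ.asAlgebraHom (D.inc b) := by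
        intro b
        induction b using MonoidAlgebra.induction_on with
        | of n =>
          rw [MonoidAlgebra.of_apply, inc_single, ρ'.asAlgebraHom_single_one,
            ρ.asAlgebraHom_single_one]
          exact hH n (hNH n.2)
        | add a b ha hb => simp only [map_add, LinearMap.add_comp, LinearMap.comp_add, ha, hb]
        | smul r a ha => simp only [map_smul, LinearMap.smul_comp, LinearMap.comp_smul, ha]
      have hU : ∀ k ∈ K, ρ'.asAlgebraHom (D.u k) ∘ₗ F = F ∘ₗ ρ.asAlgebraHom (D.u k) := fun k hk => by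
        have h : ρ'.asAlgebraHom (D.u k) ∘ₗ F ∘ₗ ρ.asAlgebraHom (D.w k) = F :=
          LinearMap.congr_fun (hSk k hk) f
        conv_rhs => rw [← h]
        rw [LinearMap.comp_assoc, LinearMap.comp_assoc, ← Module.End.mul_eq_comp, ← map_mul,
          D.w_mul_u, hρ]
        rfl
      have hk : ∀ k ∈ K, ρ' k ∘ₗ F = F ∘ₗ ρ k := fun k hk => by
        obtain ⟨b, hb⟩ := D.exists_w_mul_single k
        have e1 : ρ' k = ρ'.asAlgebraHom (D.u k) * ρ'.asAlgebraHom (D.inc b) := by
          rw [← map_mul, ← hb, ← D.single_mul_idem_eq, map_mul, hρ', mul_one,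
            ρ'.asAlgebraHom_single_one]
        have e2 : ρ k = ρ.asAlgebraHom (D.u k) * ρ.asAlgebraHom (D.inc b) := by
          rw [← map_mul, ← hb, ← D.single_mul_idem_eq, map_mul, hρ, mul_one,
            ρ.asAlgebraHom_single_one]
        rw [e1, e2, Module.End.mul_eq_comp, Module.End.mul_eq_comp, LinearMap.comp_assoc, hHa,
          ← LinearMap.comp_assoc, hU k hk, LinearMap.comp_assoc]
      obtain ⟨k, hkK, h, hh, rfl⟩ := hKH x
      refine LinearMap.ext fun v => ?_
      have e1 := LinearMap.congr_fun (hH h hh) (ρ (k * h)⁻¹ v)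
      have e2 := LinearMap.congr_fun (hk k hkK) (ρ h (ρ (k * h)⁻¹ v))
      simp only [LinearMap.comp_apply] at e1 e2
      simp only [LinearMap.comp_apply, map_mul ρ' k h, Module.End.mul_apply]
      rw [e1, e2, ← Module.End.mul_apply, ← Module.End.mul_apply, ← map_mul, ← map_mul,
        mul_inv_cancel, map_one, Module.End.one_apply]
    · have hadF : ∀ k : X, D.ad ρ ρ' k F = F := fun k => by
        show ρ'.asAlgebraHom (D.u k) ∘ₗ F ∘ₗ ρ.asAlgebraHom (D.w k) = F
        rw [← LinearMap.comp_assoc, hcomm_of_inv F hF, LinearMap.comp_assoc,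
          ← Module.End.mul_eq_comp, ← map_mul, D.u_mul_w, hρ]
        rfl
      have hpr : D.pr ρ ρ' K 1 F = F := by
        simp only [pr, LinearMap.smul_apply, LinearMap.sum_apply, hadF,
          D.om_of_mem (one_mem D.N), inv_one, one_smul, Finset.sum_const, Finset.card_univ,
          ← Nat.cast_smul_eq_nsmul ℂ, smul_smul, ← Nat.card_eq_fintype_card]
        rw [inv_mul_cancel₀ (Nat.cast_ne_zero.2 Nat.card_pos.ne'), one_smul]
      have hhF : ∀ h : X, hA h F = F := fun h => by
        have := hF h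
        rwa [Representation.linHom_apply] at this
      simp only [hS, LinearMap.smul_apply, LinearMap.sum_apply, Module.End.mul_apply, hpr, hhF,
        Finset.sum_const, Finset.card_univ, ← Nat.cast_smul_eq_nsmul ℂ, smul_smul,
        ← Nat.card_eq_fintype_card]
      rw [inv_mul_cancel₀ (Nat.cast_ne_zero.2 Nat.card_pos.ne'), one_smul]
  have hTS : T * S = S := LinearMap.ext fun f => by
    show ρ'.asAlgebraHom j ∘ₗ S f ∘ₗ ρ.asAlgebraHom j = S f
    rw [← LinearMap.comp_assoc, hcomm_of_inv _ (hproj.map_mem f), LinearMap.comp_assoc,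
      ← Module.End.mul_eq_comp, ← map_mul, hjj, hρ]
    rfl
  have hfin : (finrank ℂ (ρ.linHom ρ').invariants : ℂ)
      = classInner ρ'.character ρ.character := by
    rw [classInner_character_eq_finrank,
      (Representation.invariantsEquivIntertwiningMap ρ ρ').finrank_eq]
  rw [← hfin, ← hproj.trace]
  conv_rhs => rw [← hTS, hS, mul_smul_comm, Finset.mul_sum, map_smul, map_sum, smul_eq_mul]
  congr 1
  refine Finset.sum_congr rfl fun h _ => ?_
  rw [← mul_assoc, htr h h.2]
  simp only [hT, hA, sand_mul, trace_sand, delta, Subgroup.coe_inv]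
  rw [LinearMap.trace_mul_comm ℂ (ρ' (h : X))]

end BaseRep

end CfsgLib.IsaacsCorr
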