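import Cfsg.Agent.Lib.CharTheory.Degree
import Cfsg.Agent.Lib.IsaacsCorr.Twisted

/-!
# The correspondence over a nondegenerate section

Every character of `X` over the base character has exactly one constituent of odd multiplicity on
restriction to `H`; this gives a bijection with the characters of `H` over the base character.
-/

set_option autoImplicit false
set_option linter.style.haveILetI false
set_option linter.unusedSectionVars false

open scoped ComplexConjugate
open Cfsg CfsgLib.CharTheory CfsgLib.Frobenius CfsgLib.Clifford MonoidAlgebra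

namespace CfsgLib.IsaacsCorr

variable {X : Type*} [Group X] [Fintype X]

namespace BaseRep

variable {D : BaseRep X}

/-- `χ` lies over the base character. -/
def Over (D : BaseRep X) (χ : X → ℂ) : Prop :=
  classInner (fun n : D.N => χ n) D.rep.character ≠ 0

theorem Over.res_eq {χ : X → ℂ} (hχ : IsIrrCharacter X χ) (h : Over D χ) :
    ∃ a : ℂ, ∀ n : D.N, χ n = a * D.rep.character n := by
  have hinv : ∀ g : X, conjChar D.N D.rep.character g = D.rep.character := fun g =>
    funext fun n => D.inv g n _ rfl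
  refine ⟨classInner (fun n : D.N => χ n) D.rep.character, fun n => ?_⟩
  exact congrFun (res_eq_of_invariant D.N hχ (isIrrCharacter_character D.rep) hinv h) n

variable {K : Subgroup X} [Fintype K] {H : Subgroup X} [Fintype H] {j : MonoidAlgebra ℂ X}

/-- The standing hypotheses. -/
structure Setting (D : BaseRep X) (K H : Subgroup X) [Fintype K] (j : MonoidAlgebra ℂ X) :
    Prop where
  odd : Odd (Nat.card X)
  sec : D.Sec K
  nondeg : D.Nondeg K
  le : D.N ≤ H
  sup : ∀ x : X, ∃ k ∈ K, ∃ h ∈ H, x = k * h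
  rel : Rel D K j
  sq : j * j = D.idem
  comm : ∀ h ∈ H, single h 1 * j = j * single h 1

/-- The multiplicity is odd. -/
def OddMult (χ : X → ℂ) (ξ : H → ℂ) : Prop :=
  ∃ m : ℕ, classInner (fun h : H => χ h) ξ = m ∧ Odd m

theorem exists_twisted (S : D.Setting K H j) {n : ℕ} (ρ : Representation ℂ X (Fin n → ℂ))
    [ρ.IsIrreducible] (h : Over D ρ.character) :
    ∃ ψ : IrrCharacter H, ((delta ρ H j = (ψ : H → ℂ)) ∨ delta ρ H j = -(ψ : H → ℂ)) ∧
      ∀ ξ : IrrCharacter H, OddMult ρ.character (ξ : H → ℂ) ↔ ξ = ψ := by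
  classical
  obtain ⟨a, ha⟩ := h.res_eq (isIrrCharacter_character ρ)
  have hρ := D.asAlgebraHom_idem_eq_one ρ ha
  obtain ⟨β, hβ, hsplit⟩ := exists_delta_eq ρ hρ S.sq S.comm
  have hresC : IsCharacter H (fun h : H => ρ.character h) :=
    CfsgLib.Coherence.isCharacter_comp (isCharacter_character ρ) H.subtype
  have hδgen : IsGeneralizedCharacter H (delta ρ H j) :=
    ⟨fun h : H => ρ.character h, β + β, hresC, CfsgLib.Coherence.isCharacter_add hβ hβ,
      funext fun h => by simp only [Pi.sub_apply, Pi.add_apply, hsplit h]; ring⟩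
  have hnorm : classInner (delta ρ H j) (delta ρ H j) = 1 := by
    have h1 := sum_delta_mul (ρ := ρ) (ρ' := ρ) S.odd S.sec S.nondeg S.le S.sup S.rel S.sq S.comm
      hρ hρ
    rw [classInner_self_of_isIrr (isIrrCharacter_character ρ)] at h1
    rw [← h1, classInner]
    congr 1
    exact Finset.sum_congr rfl fun x _ => by rw [IsGeneralizedCharacter.inv hδgen]
  obtain ⟨ψ, hψ⟩ : ∃ ψ : IrrCharacter H,
      delta ρ H j = (ψ : H → ℂ) ∨ delta ρ H j = -(ψ : H → ℂ) := by
    rcases exists_sign_irr_of_norm_one hδgen hnorm with hi | hi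
    · exact ⟨⟨_, hi⟩, Or.inl rfl⟩
    · exact ⟨⟨_, hi⟩, Or.inr (neg_neg _).symm⟩
  refine ⟨ψ, hψ, fun ξ => ?_⟩
  have hfun : (fun h : H => ρ.character h) = delta ρ H j + (2 : ℂ) • β :=
    funext fun h => by rw [Pi.add_apply, Pi.smul_apply, smul_eq_mul, hsplit h]
  obtain ⟨m, hm⟩ := IsCharacter.exists_classInner_eq_nat hresC ξ
  obtain ⟨b, hb⟩ := IsCharacter.exists_classInner_eq_nat hβ ξ
  have hval : ∃ e : ℤ, classInner (delta ρ H j) (ξ : H → ℂ) = e ∧ (Odd e ↔ ξ = ψ) := by
    rcases hψ with hd | hd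
    · refine ⟨if ψ = ξ then 1 else 0, ?_, ?_⟩
      · rw [hd, classInner_irrCharacter]; split_ifs <;> simp
      · split_ifs with h <;> simp [h, eq_comm (a := ξ)]
    · refine ⟨if ψ = ξ then -1 else 0, ?_, ?_⟩
      · rw [hd, classInner_neg_left, classInner_irrCharacter]; split_ifs <;> simp
      · split_ifs with h <;> simp [h, eq_comm (a := ξ)]
  obtain ⟨e, he, heiff⟩ := hval
  have hme : (m : ℤ) = e + 2 * b := by
    rw [hfun, classInner_add_left, classInner_smul_left, hb, he] at hm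
    exact_mod_cast hm.symm
  have hpar : Odd m ↔ Odd e := by
    rw [← Int.odd_coe_nat, hme, Int.odd_add]
    simp
  rw [← heiff, ← hpar]
  refine ⟨fun ⟨m', hm', ho⟩ => ?_, fun ho => ⟨m, hm, ho⟩⟩
  have : m' = m := by rw [hm] at hm'; exact_mod_cast hm'.symm
  exact this ▸ ho

theorem Setting.existsUnique_oddMult (S : D.Setting K H j) {χ : X → ℂ}
    (hχ : IsIrrCharacter X χ) (h : Over D χ) :
    ∃ ψ : IrrCharacter H, ∀ ξ : IrrCharacter H, OddMult χ (ξ : H → ℂ) ↔ ξ = ψ := by
  obtain ⟨n, ρ, hρ, rfl⟩ := hχ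
  obtain ⟨ψ, -, hψ⟩ := exists_twisted S ρ h
  exact ⟨ψ, hψ⟩

theorem Setting.eq_of_oddMult (S : D.Setting K H j) {χ χ' : X → ℂ} (hχ : IsIrrCharacter X χ)
    (hχ' : IsIrrCharacter X χ') (h : Over D χ) (h' : Over D χ') {ξ : IrrCharacter H}
    (ho : OddMult χ (ξ : H → ℂ)) (ho' : OddMult χ' (ξ : H → ℂ)) : χ = χ' := by
  classical
  obtain ⟨n, ρ, hρ, rfl⟩ := hχ
  obtain ⟨n', ρ', hρ', rfl⟩ := hχ'
  obtain ⟨ψ, hψ, hiff⟩ := exists_twisted S ρ h
  obtain ⟨ψ', hψ', hiff'⟩ := exists_twisted S ρ' h'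
  obtain rfl : ξ = ψ := (hiff ξ).1 ho
  obtain rfl : ξ = ψ' := (hiff' ξ).1 ho'
  by_contra hne
  obtain ⟨a, ha⟩ := h.res_eq (isIrrCharacter_character ρ)
  obtain ⟨a', ha'⟩ := h'.res_eq (isIrrCharacter_character ρ')
  have h1 := sum_delta_mul (ρ := ρ) (ρ' := ρ') S.odd S.sec S.nondeg S.le S.sup S.rel S.sq S.comm
    (D.asAlgebraHom_idem_eq_one ρ ha) (D.asAlgebraHom_idem_eq_one ρ' ha')
  rw [classInner_eq_zero_of_ne (isIrrCharacter_character ρ') (isIrrCharacter_character ρ)
    fun e => hne e.symm] at h1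
  have h2 : (Nat.card H : ℂ)⁻¹ * ∑ x : H, (ξ : H → ℂ) x * (ξ : H → ℂ) x⁻¹ = 1 := by
    rw [← classInner_eq_sum_inv (IsIrrCharacter.isCharacter ξ.2), classInner_self_of_isIrr ξ.2]
  rcases hψ with hd | hd <;> rcases hψ' with hd' | hd' <;>
    simp only [hd, hd', Pi.neg_apply, neg_mul, mul_neg, neg_neg, Finset.sum_neg_distrib] at h1
  all_goals simp at h1
  all_goals rw [h1, mul_zero] at h2
  all_goals exact zero_ne_one h2

theorem Setting.exists_oddMult (S : D.Setting K H j) (ξ : IrrCharacter H)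
    (hξ : ∃ a : ℂ, ∀ n : D.N, (ξ : H → ℂ) ⟨(n : X), S.le n.2⟩ = a * D.rep.character n) :
    ∃ χ : IrrCharacter X, Over D (χ : X → ℂ) ∧ OddMult (χ : X → ℂ) (ξ : H → ℂ) := by
  classical
  letI : Fintype (IrrCharacter X) := Fintype.ofFinite _
  obtain ⟨a, ha⟩ := hξ
  have ha0 : a ≠ 0 := fun h0 => apply_one_ne_zero_of_isIrr ξ.2 (by
    have h1 := ha 1
    rw [h0, zero_mul] at h1
    exact h1)
  obtain ⟨m, hm⟩ := IsCharacter.exists_sum (isCharacter_indFun H _ (IsIrrCharacter.isCharacter ξ.2))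
  have hmul : ∀ χ : IrrCharacter X,
      classInner (fun h : H => (χ : X → ℂ) h) (ξ : H → ℂ) = m χ := fun χ => by
    have h1 : classInner (indFun H (ξ : H → ℂ)) (χ : X → ℂ) = (m χ : ℂ) := by
      rw [hm]; exact classInner_sum_irr _ χ
    rw [classInner_indFun H _ _ (IsIrrCharacter.isClassFunction χ.2), classInner_conj_symm] at h1
    simpa using congrArg conj h1
  have hdeg : ∀ χ : IrrCharacter X, ∃ d : ℕ, (χ : X → ℂ) 1 = d := fun χ =>
    exists_degree_of_isCharacter (IsIrrCharacter.isCharacter χ.2)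
  choose d hd using hdeg
  obtain ⟨e, hedvd, he⟩ : ∃ e : ℕ, e ∣ Nat.card H ∧ (ξ : H → ℂ) 1 = e := by
    obtain ⟨e, -, hdvd, he⟩ := IsIrrCharacter.exists_degree_dvd ξ.2
    exact ⟨e, hdvd, he⟩
  have htot : H.index * e = ∑ χ, m χ * d χ := by
    have h1 := congrFun hm 1
    rw [indFun_one, he] at h1
    simp only [Finset.sum_apply, Pi.smul_apply, smul_eq_mul, hd] at h1
    exact_mod_cast h1
  have hodd : Odd (∑ χ, m χ * d χ) := by
    rw [← htot]
    exact (S.odd.of_dvd_nat H.index_dvd_card).mul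
      ((S.odd.of_dvd_nat (Subgroup.card_subgroup_dvd_card H)).of_dvd_nat hedvd)
  obtain ⟨χ, hχ⟩ : ∃ χ, Odd (m χ) := by
    by_contra hno
    push Not at hno
    rw [← Nat.not_even_iff_odd] at hodd
    exact hodd (Finset.even_sum _ fun χ _ => (Nat.not_odd_iff_even.1 (hno χ)).mul_right _)
  refine ⟨χ, fun h0 => ?_, m χ, hmul χ, hχ⟩
  have hm0 : m χ ≠ 0 := fun h => by simp [h] at hχ
  obtain ⟨b, f, hb, hf, hle⟩ := classInner_res_le S.le (IsIrrCharacter.isCharacter χ.2)
    (isIrrCharacter_character D.rep) {ξ} (fun φ hφ => by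
      rw [Finset.mem_singleton.1 hφ, hmul χ]; exact_mod_cast hm0)
  rw [Finset.sum_singleton] at hle
  have hb0 : b = 0 := by rw [hb] at h0; exact_mod_cast h0
  have hf0 : f ξ = 0 := by omega
  have h1 := hf ξ
  rw [hf0, Nat.cast_zero, show (fun n : D.N => (ξ : H → ℂ) ⟨(n : X), S.le n.2⟩)
    = a • D.rep.character from funext ha, classInner_smul_left,
    classInner_self_of_isIrr (isIrrCharacter_character D.rep), mul_one] at h1
  exact ha0 h1

end BaseRep

end CfsgLib.IsaacsCorr
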