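import Cfsg.Agent.Lib.IsaacsCorr.Invariant
import Cfsg.Agent.Lib.CoprimeAction.Aut
import Cfsg.Agent.Lib.Clifford.CoprimeInvariant

/-!
# Fixed constituents for a coprime operator group
-/

set_option autoImplicit false
set_option linter.style.haveILetI false
set_option linter.unusedSectionVars false

open scoped ComplexConjugate
open Cfsg CfsgLib.CharTheory CfsgLib.Frobenius CfsgLib.Clifford

namespace CfsgLib.IsaacsCorr

open BaseRep (autRestrict autRestrict_apply)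

variable {G : Type*} [Group G] [Fintype G] {A : Type*} [Group A] [Finite A]

/-- A function on a subgroup is fixed by the operators. -/
def IsFix (σ : A →* MulAut G) (S : Subgroup G) (f : S → ℂ) : Prop :=
  ∀ (a : A) (x y : S), (y : G) = σ a x → f y = f x

/-- The operators restricted to an invariant subgroup. -/
noncomputable def restrictHom (σ : A →* MulAut G) (S : Subgroup G)
    (hS : ∀ a, ∀ x ∈ S, σ a x ∈ S) : A →* MulAut S where
  toFun a := autRestrict S (σ a) (hS a)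
  map_one' := MulEquiv.ext fun x => Subtype.ext (by simp [autRestrict_apply])
  map_mul' a b := MulEquiv.ext fun x => Subtype.ext (by simp [autRestrict_apply, map_mul])

theorem coe_restrictHom (σ : A →* MulAut G) (S : Subgroup G) (hS : ∀ a, ∀ x ∈ S, σ a x ∈ S)
    (a : A) (x : S) : ((restrictHom σ S hS a x : S) : G) = σ a x := rfl

/-- The functions on a normal subgroup, with conjugation and the operators acting. -/
abbrev FunPt (N : Subgroup G) : Type _ := N → ℂ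

/-- An irreducible character fixed by the operators has a fixed constituent on an invariant normal
subgroup. -/
theorem exists_fixed_constituent (hsolv : Group.IsSolvable G)
    (hcop : (Nat.card A).Coprime (Nat.card G)) (σ : A →* MulAut G) (N : Subgroup G) [hN : N.Normal]
    [Fintype N] (hNσ : ∀ a, ∀ n ∈ N, σ a n ∈ N) {χ : G → ℂ} (hχ : IsIrrCharacter G χ)
    (hfix : ∀ a x, χ (σ a x) = χ x) :
    ∃ θ : IrrCharacter N, classInner (fun n : N => χ n) (θ : N → ℂ) ≠ 0 ∧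
      IsFix σ N (θ : N → ℂ) := by
  classical
  letI : MulAction G (FunPt N) :=
    { smul := fun g f => conjChar N f g⁻¹
      one_smul := fun f => by
        show conjChar N f (1 : G)⁻¹ = f
        rw [inv_one, conjChar_one]
      mul_smul := fun g h f => by
        show conjChar N f (g * h)⁻¹ = conjChar N (conjChar N f h⁻¹) g⁻¹
        rw [conjChar_conjChar, mul_inv_rev] }
  letI : MulAction A (FunPt N) :=
    { smul := fun a f => fun n : N => f (restrictHom σ N hNσ a⁻¹ n)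
      one_smul := fun f => by
        funext n
        show f (restrictHom σ N hNσ 1⁻¹ n) = f n
        simp
      mul_smul := fun a b f => by
        funext n
        show f (restrictHom σ N hNσ (a * b)⁻¹ n)
          = f (restrictHom σ N hNσ b⁻¹ (restrictHom σ N hNσ a⁻¹ n))
        rw [mul_inv_rev, map_mul]
        rfl }
  obtain ⟨θ₀, hθ₀⟩ := exists_constituent_res (T := N) hχ
  have hcompat : ∀ (a : A) (g : G) (f : FunPt N), a • g • f = σ a g • a • f := by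
    intro a g f
    funext n
    show conjChar N f g⁻¹ (restrictHom σ N hNσ a⁻¹ n)
      = conjChar N (fun n : N => f (restrictHom σ N hNσ a⁻¹ n)) (σ a g)⁻¹ n
    simp only [conjChar_apply]
    refine congrArg f (Subtype.ext ?_)
    show g⁻¹ * σ a⁻¹ n * g⁻¹⁻¹ = σ a⁻¹ ((σ a g)⁻¹ * n * (σ a g)⁻¹⁻¹)
    rw [map_mul (σ a⁻¹), map_mul (σ a⁻¹), inv_inv, inv_inv, map_inv (σ a⁻¹), ← MulAut.mul_apply,
      ← map_mul σ, inv_mul_cancel, map_one σ, MulAut.one_apply]
  have horb : ∀ a : A, ∃ g : G,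
      (a • ((θ₀ : N → ℂ) : FunPt N)) = g • ((θ₀ : N → ℂ) : FunPt N) := by
    intro a
    have hne : classInner (fun n : N => χ n)
        (fun n => (θ₀ : N → ℂ) (restrictHom σ N hNσ a⁻¹ n)) ≠ 0 := by
      rw [show (fun n : N => χ n)
          = fun n => (fun r : N => χ r) (restrictHom σ N hNσ a⁻¹ n) from
        funext fun n => (hfix a⁻¹ n).symm,
        classInner_comp_mulEquiv (restrictHom σ N hNσ a⁻¹) (fun r : N => χ r) (θ₀ : N → ℂ)]
      exact hθ₀
    obtain ⟨g, hg⟩ := exists_conj_of_constituents N hχ θ₀.2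
      (isIrrCharacter_comp_mulEquiv θ₀.2 _) hθ₀ hne
    refine ⟨g⁻¹, ?_⟩
    show (fun n => (θ₀ : N → ℂ) (restrictHom σ N hNσ a⁻¹ n))
      = conjChar N (θ₀ : N → ℂ) g⁻¹⁻¹
    rw [inv_inv]
    exact hg
  obtain ⟨g, hg⟩ := exists_smul_fixed σ hcompat hcop (Or.inr hsolv)
    ((θ₀ : N → ℂ) : FunPt N) horb
  refine ⟨⟨conjChar N (θ₀ : N → ℂ) g⁻¹, isIrrCharacter_conjChar N θ₀.2 _⟩, ?_, fun a x y hy => ?_⟩
  · rw [classInner_conjChar N (IsIrrCharacter.isClassFunction hχ)]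
    exact hθ₀
  · have h : conjChar N (θ₀ : N → ℂ) g⁻¹ (restrictHom σ N hNσ a⁻¹ y)
        = conjChar N (θ₀ : N → ℂ) g⁻¹ y := congrFun (hg a) y
    show conjChar N (θ₀ : N → ℂ) g⁻¹ y = conjChar N (θ₀ : N → ℂ) g⁻¹ x
    rw [← h]
    refine congrArg _ (Subtype.ext ?_)
    rw [coe_restrictHom, hy, ← MulAut.mul_apply, ← map_mul, inv_mul_cancel, map_one]
    rfl

/-- The standing hypotheses: `G = K C` with `K / (K ⊓ H)` abelian and `C` the fixed points, which
lie in `H`. -/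
structure Ctx (σ : A →* MulAut G) (K H : Subgroup G) : Prop where
  odd : Odd (Nat.card G)
  solv : Group.IsSolvable G
  cop : (Nat.card A).Coprime (Nat.card G)
  normal : K.Normal
  normalL : (K ⊓ H).Normal
  mapK : ∀ a, ∀ k ∈ K, σ a k ∈ K
  mapH : ∀ a, ∀ h ∈ H, σ a h ∈ H
  fixed_mem : ∀ c, (∀ a, σ a c = c) → c ∈ H
  comm : ∀ a ∈ K, ∀ b ∈ K, a⁻¹ * b⁻¹ * a * b ∈ H
  gen : ∀ g, ∃ k ∈ K, ∃ c, g = k * c ∧ ∀ a, σ a c = c

/-- The stabilizer of a function on a normal subgroup. -/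
def stabilizerOf (N : Subgroup G) [hN : N.Normal] (θ : N → ℂ) : Subgroup G where
  carrier := {g | conjChar N θ g = θ}
  one_mem' := conjChar_one N θ
  mul_mem' := fun {a b} ha hb => by
    show conjChar N θ (a * b) = θ
    rw [← conjChar_conjChar, show conjChar N θ a = θ from ha, show conjChar N θ b = θ from hb]
  inv_mem' := fun {a} ha => by
    show conjChar N θ a⁻¹ = θ
    conv_lhs => rw [← show conjChar N θ a = θ from ha]
    rw [conjChar_conjChar, mul_inv_cancel, conjChar_one]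

theorem mem_stabilizerOf {N : Subgroup G} [N.Normal] {θ : N → ℂ} {g : G} :
    g ∈ stabilizerOf N θ ↔ conjChar N θ g = θ := Iff.rfl

theorem le_stabilizerOf {N : Subgroup G} [hN : N.Normal] {θ : N → ℂ}
    (hθ : IsClassFunction N θ) : N ≤ stabilizerOf N θ := fun g hg => funext fun n => by
  rw [conjChar_apply, show (⟨g * n * g⁻¹, hN.conj_mem (n : G) n.2 g⟩ : N)
    = ⟨g, hg⟩ * n * ⟨g, hg⟩⁻¹ from Subtype.ext rfl]
  exact hθ n ⟨g, hg⟩

namespace Ctx

variable {σ : A →* MulAut G} {K H : Subgroup G}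

theorem map_inf (c : Ctx σ K H) (a : A) {x : G} (hx : x ∈ K ⊓ H) : σ a x ∈ K ⊓ H :=
  ⟨c.mapK a x hx.1, c.mapH a x hx.2⟩

theorem decomp (c : Ctx σ K H) {h : G} (hh : h ∈ H) :
    ∃ n ∈ K ⊓ H, ∃ z, h = n * z ∧ ∀ a, σ a z = z := by
  obtain ⟨k, hk, z, rfl, hz⟩ := c.gen h
  exact ⟨k, ⟨hk, by simpa using mul_mem hh (inv_mem (c.fixed_mem z hz))⟩, z, rfl, hz⟩

theorem fix (c : Ctx σ K H) {k : G} (hk : k ∈ K) (h : ∀ a, k⁻¹ * σ a k ∈ K ⊓ H) :
    k ∈ K ⊓ H := by
  obtain ⟨z, hz, hzfix⟩ := CfsgLib.CoprimeAction.exists_fixed_mem_coset σ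
    (fun a n hn => c.map_inf a hn)
    (c.cop.coprime_dvd_right (Subgroup.card_subgroup_dvd_card _))
    (Or.inr (haveI := c.solv; inferInstance)) h
  refine ⟨hk, ?_⟩
  simpa using mul_mem (c.fixed_mem z hzfix) (inv_mem hz.2)

theorem map_stab (c : Ctx σ K H) [(K ⊓ H).Normal] {θ : ↥(K ⊓ H) → ℂ}
    (hθ : IsFix σ (K ⊓ H) θ) (a : A) {g : G} (hg : g ∈ stabilizerOf (K ⊓ H) θ) :
    σ a g ∈ stabilizerOf (K ⊓ H) θ := funext fun n => by
  have hn : σ a⁻¹ (n : G) ∈ K ⊓ H := c.map_inf a⁻¹ n.2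
  have hinv : σ a (σ a⁻¹ (n : G)) = n := by
    rw [← MulAut.mul_apply, ← map_mul, mul_inv_cancel, map_one]; rfl
  have h1 := congrFun hg ⟨_, hn⟩
  rw [conjChar_apply] at h1 ⊢
  rw [hθ a ⟨g * σ a⁻¹ n * g⁻¹, c.normalL.conj_mem _ hn g⟩ _ (by simp), h1]
  exact (hθ a ⟨_, hn⟩ n hinv.symm).symm

/-- Two fixed characters conjugate in `G` are conjugate by a fixed element. -/
theorem exists_fixed_conj (c : Ctx σ K H) [(K ⊓ H).Normal] {θ θ' : ↥(K ⊓ H) → ℂ}
    (hθ : IsFix σ (K ⊓ H) θ) (hθ' : IsFix σ (K ⊓ H) θ') {g : G}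
    (h : θ' = conjChar (K ⊓ H) θ g) :
    ∃ z ∈ H, θ' = conjChar (K ⊓ H) θ z := by
  set T := stabilizerOf (K ⊓ H) θ
  have hx : ∀ a, g⁻¹⁻¹ * σ a g⁻¹ ∈ T := by
    intro a
    have h1 : conjChar (K ⊓ H) θ (σ a g) = θ' := funext fun n => by
      have hn : σ a⁻¹ (n : G) ∈ K ⊓ H := c.map_inf a⁻¹ n.2
      have hinv : σ a (σ a⁻¹ (n : G)) = n := by
        rw [← MulAut.mul_apply, ← map_mul, mul_inv_cancel, map_one]; rfl
      rw [hθ' a ⟨_, hn⟩ n hinv.symm, h, conjChar_apply, conjChar_apply]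
      exact hθ a ⟨g * σ a⁻¹ n * g⁻¹, c.normalL.conj_mem _ hn g⟩ _ (by simp)
    rw [inv_inv, map_inv, mem_stabilizerOf, ← conjChar_conjChar, ← h, ← h1, conjChar_conjChar,
      mul_inv_cancel, conjChar_one]
  obtain ⟨z, hz, hzfix⟩ := CfsgLib.CoprimeAction.exists_fixed_mem_coset σ (N := T)
    (fun a n hn => c.map_stab hθ a hn)
    (c.cop.coprime_dvd_right (Subgroup.card_subgroup_dvd_card _))
    (Or.inr (haveI := c.solv; inferInstance)) hx
  refine ⟨z⁻¹, inv_mem (c.fixed_mem z hzfix), ?_⟩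
  rw [inv_inv, mem_stabilizerOf, ← conjChar_conjChar, ← h] at hz
  conv_rhs => rw [← hz, conjChar_conjChar, mul_inv_cancel, conjChar_one]

theorem stab_decomp (c : Ctx σ K H) [(K ⊓ H).Normal] {θ : ↥(K ⊓ H) → ℂ}
    (hθ : IsFix σ (K ⊓ H) θ) {t : G} (ht : t ∈ stabilizerOf (K ⊓ H) θ) :
    ∃ k ∈ K ⊓ stabilizerOf (K ⊓ H) θ, ∃ z ∈ stabilizerOf (K ⊓ H) θ,
      t = k * z ∧ ∀ a, σ a z = z := by
  set T := stabilizerOf (K ⊓ H) θ
  have hx : ∀ a, t⁻¹ * σ a t ∈ K ⊓ T := fun a => by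
    refine Subgroup.mem_inf.2 ⟨?_, mul_mem (inv_mem ht) (c.map_stab hθ a ht)⟩
    obtain ⟨k, hk, z, rfl, hz⟩ := c.gen t
    simpa [hz a, mul_assoc] using
      c.normal.conj_mem _ (mul_mem (inv_mem hk) (c.mapK a k hk)) z⁻¹
  obtain ⟨z, hz, hzfix⟩ := CfsgLib.CoprimeAction.exists_fixed_mem_coset σ (N := K ⊓ T)
    (fun a n hn => ⟨c.mapK a n hn.1, c.map_stab hθ a hn.2⟩)
    (c.cop.coprime_dvd_right (Subgroup.card_subgroup_dvd_card _))
    (Or.inr (haveI := c.solv; inferInstance)) hx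
  have hzT : z ∈ T := by simpa using mul_mem ht hz.2
  refine ⟨t * z⁻¹, Subgroup.mem_inf.2 ⟨?_, mul_mem ht (inv_mem hzT)⟩, z, hzT, by simp, hzfix⟩
  have := c.normal.conj_mem _ (inv_mem hz.1) z
  simpa [mul_assoc] using this

end Ctx

end CfsgLib.IsaacsCorr
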