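import Cfsg.Agent.Lib.IsaacsCorr.Ctx

/-!
# Descent to the stabilizer of a fixed constituent
-/

set_option autoImplicit false
set_option linter.style.haveILetI false
set_option linter.unusedSectionVars false

open scoped ComplexConjugate
open Cfsg CfsgLib.CharTheory CfsgLib.Frobenius CfsgLib.Clifford

namespace CfsgLib.IsaacsCorr

open BaseRep (autRestrict autRestrict_apply OddMult)

variable {G : Type*} [Group G] [Fintype G] {A : Type*} [Group A] [Finite A]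

/-- Induction commutes with automorphisms preserving the subgroup. -/
theorem indFun_comp_aut {T : Subgroup G} (f : G ≃* G) (hf : ∀ x ∈ T, f x ∈ T) (ξ : T → ℂ) (g : G) :
    indFun T (fun t => ξ (autRestrict T f hf t)) g = indFun T ξ (f g) := by
  simp only [indFun]
  congr 1
  refine Fintype.sum_equiv f.toEquiv _ _ fun x => ?_
  show extendByZero T _ (x⁻¹ * g * x) = extendByZero T ξ ((f x)⁻¹ * f g * f x)
  rw [show (f x)⁻¹ * f g * f x = f (x⁻¹ * g * x) by simp]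
  by_cases h : x⁻¹ * g * x ∈ T
  · rw [extendByZero_of_mem T _ h, extendByZero_of_mem T ξ (hf _ h)]
    rfl
  · rw [extendByZero_of_not_mem T _ h, extendByZero_of_not_mem T ξ fun h' => h ?_]
    obtain ⟨⟨y, hy⟩, hye⟩ := (autRestrict T f hf).surjective ⟨_, h'⟩
    have : f y = f (x⁻¹ * g * x) := congrArg Subtype.val hye
    rwa [f.injective this] at hy

/-- A fixed character over a fixed constituent corresponds to a fixed character of the
stabilizer. -/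
theorem exists_fixed_corr (σ : A →* MulAut G) {N T : Subgroup G} [N.Normal] [Fintype N] [Fintype T]
    {θ : N → ℂ} (hθ : IsIrrCharacter N θ) (hT : ∀ g : G, g ∈ T ↔ conjChar N θ g = θ) (hNT : N ≤ T)
    (hTσ : ∀ a, ∀ t ∈ T, σ a t ∈ T) (hNσ : ∀ a, ∀ n ∈ N, σ a n ∈ N) (hθf : IsFix σ N θ)
    {χ : G → ℂ} (hχ : IsIrrCharacter G χ) (hχf : ∀ a x, χ (σ a x) = χ x)
    (h1 : classInner (fun n : N => χ n) θ ≠ 0) :
    ∃ ψ : IrrCharacter T, indFun T (ψ : T → ℂ) = χ ∧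
      classInner (fun n : N => (ψ : T → ℂ) ⟨(n : G), hNT n.2⟩) θ ≠ 0 ∧
      IsFix σ T (ψ : T → ℂ) := by
  obtain ⟨ψ, hψ, hind, hmult⟩ := exists_indFun_inertia_eq hθ hT hNT hχ h1
  have hψne : classInner (fun n : N => ψ ⟨(n : G), hNT n.2⟩) θ ≠ 0 := by rwa [hmult]
  refine ⟨⟨ψ, hψ⟩, hind, hψne, fun a x y hy => ?_⟩
  have h2 : (fun t => ψ (autRestrict T (σ a) (hTσ a) t)) = ψ := by
    refine indFun_inertia_injective hθ hT hNT (isIrrCharacter_comp_mulEquiv hψ _) hψ ?_ hψne ?_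
    · refine fun h0 => hψne ?_
      rw [← h0, ← classInner_comp_mulEquiv (autRestrict N (σ a) (hNσ a))
        (fun n : N => ψ ⟨(n : G), hNT n.2⟩) θ]
      have hfun : (fun n : N => θ (autRestrict N (σ a) (hNσ a) n)) = θ :=
        funext fun n => hθf a n _ rfl
      rw [hfun]
      rfl
    · funext g
      rw [indFun_comp_aut (σ a) (hTσ a) ψ g, hind, hχf]
  calc ψ y = ψ (autRestrict T (σ a) (hTσ a) x) := congrArg ψ (Subtype.ext hy)
    _ = ψ x := congrFun h2 x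

/-- The characters induced from fixed characters of the stabilizer are fixed. -/
theorem indFun_fixed (σ : A →* MulAut G) {T : Subgroup G} (hTσ : ∀ a, ∀ t ∈ T, σ a t ∈ T)
    {ψ : T → ℂ} (hψ : IsFix σ T ψ) (a : A) (x : G) : indFun T ψ (σ a x) = indFun T ψ x := by
  rw [← indFun_comp_aut (σ a) (hTσ a) ψ x]
  exact congrFun (congrArg (indFun T) (funext fun t => hψ a t _ rfl)) x

/-- Multiplicities on a subgroup of a constituent over `θ` are seen in the stabilizer. -/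
theorem classInner_res_stab {N T H : Subgroup G} [N.Normal] [Fintype N] [Fintype T]
    [Fintype (H.subgroupOf T)] {θ : N → ℂ} (hθ : IsIrrCharacter N θ)
    (hT : ∀ g : G, g ∈ T ↔ conjChar N θ g = θ) (hNT : N ≤ T) (hNH : N ≤ H) {χ₀ : T → ℂ}
    (hχ₀ : IsIrrCharacter T χ₀)
    (h1 : classInner (fun n : N => χ₀ ⟨(n : G), hNT n.2⟩) θ ≠ 0) {ξ : H.subgroupOf T → ℂ}
    (hξ : IsIrrCharacter (H.subgroupOf T) ξ)
    (h2 : classInner (fun n : N => ξ ⟨⟨(n : G), hNT n.2⟩, hNH n.2⟩) θ ≠ 0) :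
    classInner (fun y : H.subgroupOf T => indFun T χ₀ ((y : T) : G)) ξ
      = classInner (fun y : H.subgroupOf T => χ₀ y) ξ := by
  classical
  letI : Fintype (IrrCharacter T) := Fintype.ofFinite _
  letI : Fintype (N.subgroupOf T) := Fintype.ofFinite _
  obtain ⟨hirr, hmult⟩ := isIrrCharacter_indFun_inertia hθ hT hNT hχ₀ h1
  obtain ⟨m, hm⟩ := IsCharacter.exists_sum
    (CfsgLib.Coherence.isCharacter_comp (IsIrrCharacter.isCharacter hirr) T.subtype)
  have hm' : ∀ t : T, indFun T χ₀ (t : G) = ∑ φ, (m φ : ℂ) * (φ : T → ℂ) t := fun t => by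
    simpa [Finset.sum_apply] using congrFun hm t
  have hmφ : ∀ φ : IrrCharacter T,
      classInner (fun t : T => indFun T χ₀ (t : G)) (φ : T → ℂ) = m φ := fun φ => by
    rw [show (fun t : T => indFun T χ₀ (t : G)) = _ from hm]
    exact classInner_sum_irr _ φ
  have hm1 : m ⟨χ₀, hχ₀⟩ = 1 := by
    have h := hmφ ⟨χ₀, hχ₀⟩
    rw [← classInner_indFun_right T χ₀ _ (IsIrrCharacter.isClassFunction hirr),
      classInner_self_of_isIrr hirr] at h
    exact_mod_cast h.symm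
  have hsum : (fun y : H.subgroupOf T => indFun T χ₀ ((y : T) : G))
      = ∑ φ : IrrCharacter T, (m φ : ℂ) • fun y : H.subgroupOf T => (φ : T → ℂ) y :=
    funext fun y => by rw [hm']; simp [Finset.sum_apply]
  rw [hsum, classInner_sum_left, Finset.sum_eq_single ⟨χ₀, hχ₀⟩ (fun φ _ hne => ?_)
    (fun h => absurd (Finset.mem_univ _) h), classInner_smul_left, hm1, Nat.cast_one, one_mul]
  rw [classInner_smul_left]
  rcases eq_or_ne (m φ) 0 with h0 | h0
  · rw [h0, Nat.cast_zero, zero_mul]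
  refine mul_eq_zero_of_right _ (by_contra fun hne' => ?_)
  obtain ⟨a, e, ha, he, hle⟩ := classInner_res_le hNT (IsIrrCharacter.isCharacter hirr) hθ
    {φ, ⟨χ₀, hχ₀⟩} (fun φ' hφ' => by
      rw [hmφ]
      rcases Finset.mem_insert.1 hφ' with rfl | hφ'
      · exact_mod_cast h0
      · rw [Finset.mem_singleton.1 hφ', hm1, Nat.cast_one]; exact one_ne_zero)
  rw [Finset.sum_pair hne] at hle
  rw [hmult, he ⟨χ₀, hχ₀⟩] at ha
  have ha' : e ⟨χ₀, hχ₀⟩ = a := by exact_mod_cast ha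
  have heφ : classInner (fun n : N => (φ : T → ℂ) ⟨(n : G), hNT n.2⟩) θ = 0 := by
    rw [he φ, show e φ = 0 by omega, Nat.cast_zero]
  let eN : N.subgroupOf T ≃* N := Subgroup.subgroupOfEquivOfLe hNT
  obtain ⟨b, f, hb, hf, hle'⟩ := classInner_res_le (G := T) (N := N.subgroupOf T)
    (T := H.subgroupOf T) (fun x hx => hNH hx) (IsIrrCharacter.isCharacter φ.2)
    (isIrrCharacter_comp_mulEquiv hθ eN) {(⟨ξ, hξ⟩ : IrrCharacter (H.subgroupOf T))}
    (fun φ' hφ' => by rw [Finset.mem_singleton.1 hφ']; exact hne')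
  rw [Finset.sum_singleton] at hle'
  have hb0 : b = 0 := by
    have h := classInner_comp_mulEquiv eN (fun n : N => (φ : T → ℂ) ⟨(n : G), hNT n.2⟩) θ
    have h' : classInner (fun x : N.subgroupOf T => (φ : T → ℂ) (x : T)) (fun x => θ (eN x))
        = 0 := h.trans heφ
    exact_mod_cast hb.symm.trans h'
  have hf' := hf ⟨ξ, hξ⟩
  rw [show f ⟨ξ, hξ⟩ = 0 by omega, Nat.cast_zero] at hf'
  exact h2 ((classInner_comp_mulEquiv eN
    (fun n : N => ξ ⟨⟨(n : G), hNT n.2⟩, hNH n.2⟩) θ).symm.trans hf')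

/-- `H ∩ T` inside `H` and inside `T`. -/
noncomputable def swapEquiv (T H : Subgroup G) : T.subgroupOf H ≃* H.subgroupOf T where
  toFun x := ⟨⟨((x : H) : G), x.2⟩, (x : H).2⟩
  invFun x := ⟨⟨((x : T) : G), x.2⟩, (x : T).2⟩
  left_inv _ := rfl
  right_inv _ := rfl
  map_mul' _ _ := rfl

/-- The odd multiplicity condition. -/
def OddIn (H : Subgroup G) [Fintype H] (χ : G → ℂ) (ψ : H → ℂ) : Prop :=
  ∃ m : ℕ, classInner (fun h : H => χ h) ψ = m ∧ Odd m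

namespace Ctx

variable {σ : A →* MulAut G} {K H : Subgroup G} [Fintype H]

/-- The correspondence over a fixed character of `K ⊓ H`. -/
theorem local_corr (c : Ctx σ K H) [(K ⊓ H).Normal] [Fintype ↥(K ⊓ H)] {θ : ↥(K ⊓ H) → ℂ}
    (hθ : IsIrrCharacter ↥(K ⊓ H) θ) (hθf : IsFix σ (K ⊓ H) θ) :
    (∀ χ : IrrCharacter G, (∀ a x, (χ : G → ℂ) (σ a x) = (χ : G → ℂ) x) →
      classInner (fun n : ↥(K ⊓ H) => (χ : G → ℂ) n) θ ≠ 0 →
      ∃ ψ : IrrCharacter H, IsFix σ H (ψ : H → ℂ) ∧ OddIn H (χ : G → ℂ) (ψ : H → ℂ) ∧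
        ∀ η : IrrCharacter H,
          classInner (fun n : ↥(K ⊓ H) => (η : H → ℂ) ⟨(n : G), (inf_le_right : K ⊓ H ≤ H) n.2⟩) θ ≠ 0 →
          OddIn H (χ : G → ℂ) (η : H → ℂ) → η = ψ) ∧
    (∀ χ χ' : IrrCharacter G, (∀ a x, (χ : G → ℂ) (σ a x) = (χ : G → ℂ) x) →
      (∀ a x, (χ' : G → ℂ) (σ a x) = (χ' : G → ℂ) x) →
      classInner (fun n : ↥(K ⊓ H) => (χ : G → ℂ) n) θ ≠ 0 →
      classInner (fun n : ↥(K ⊓ H) => (χ' : G → ℂ) n) θ ≠ 0 →
      ∀ η : IrrCharacter H,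
        classInner (fun n : ↥(K ⊓ H) => (η : H → ℂ) ⟨(n : G), (inf_le_right : K ⊓ H ≤ H) n.2⟩) θ ≠ 0 →
        OddIn H (χ : G → ℂ) (η : H → ℂ) → OddIn H (χ' : G → ℂ) (η : H → ℂ) → χ = χ') ∧
    (∀ η : IrrCharacter H, IsFix σ H (η : H → ℂ) →
      classInner (fun n : ↥(K ⊓ H) => (η : H → ℂ) ⟨(n : G), (inf_le_right : K ⊓ H ≤ H) n.2⟩) θ ≠ 0 →
      ∃ χ : IrrCharacter G, (∀ a x, (χ : G → ℂ) (σ a x) = (χ : G → ℂ) x) ∧
        OddIn H (χ : G → ℂ) (η : H → ℂ)) := by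
  classical
  have hLH : K ⊓ H ≤ H := inf_le_right
  set T := stabilizerOf (K ⊓ H) θ with hTdef
  have hLT : (K ⊓ H) ≤ T := le_stabilizerOf (IsIrrCharacter.isClassFunction hθ)
  have hT : ∀ g : G, g ∈ T ↔ conjChar (K ⊓ H) θ g = θ := fun g => Iff.rfl
  have hTσ : ∀ a, ∀ t ∈ T, σ a t ∈ T := fun a t ht => c.map_stab hθf a ht
  have hLσ : ∀ a, ∀ n ∈ (K ⊓ H), σ a n ∈ (K ⊓ H) := fun a n hn => c.map_inf a hn
  letI : Fintype T := Fintype.ofFinite _
  letI : Fintype (H.subgroupOf T) := Fintype.ofFinite _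
  letI : Fintype (T.subgroupOf H) := Fintype.ofFinite _
  letI : Fintype ((K ⊓ H).subgroupOf H) := Fintype.ofFinite _
  letI : Fintype ((K ⊓ H).subgroupOf T) := Fintype.ofFinite _
  -- the data at the stabilizer
  let eT : (K ⊓ H).subgroupOf T ≃* ↥(K ⊓ H) := Subgroup.subgroupOfEquivOfLe hLT
  obtain ⟨dd, ρ, hirr, hinv, hc⟩ := BaseRep.exists_of_irr (N := (K ⊓ H).subgroupOf T)
    (φ := fun n => θ (eT n)) (isIrrCharacter_comp_mulEquiv hθ eT) (fun x n m hm => by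
      refine Eq.trans ?_ (congrFun (x.2 : conjChar (K ⊓ H) θ (x : G) = θ) (eT n))
      exact congrArg θ (Subtype.ext (congrArg (fun t : T => (t : G)) hm)))
  set D : BaseRep T := ⟨(K ⊓ H).subgroupOf T, inferInstance, dd, ρ, hirr, hinv⟩ with hD
  have hDc : D.rep.character = fun n => θ (eT n) := hc
  set τ := restrictHom σ T hTσ with hτ
  have d : BaseRep.Data D (K.subgroupOf T) (H.subgroupOf T) τ := by
    refine
      { odd := c.odd.of_dvd_nat (Subgroup.card_subgroup_dvd_card T)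
        sec := ⟨c.normal.subgroupOf T, fun x hx => hx.1, fun a ha b hb => ?_⟩
        le := fun x hx => hx.2
        inf := fun x hxK hxH => ⟨hxK, hxH⟩
        sup := fun x => ?_
        cop := c.cop.coprime_dvd_right (Subgroup.card_subgroup_dvd_card T)
        map := fun a => ?_
        mapK := fun a k hk => c.mapK a _ hk
        fix := fun k hk hf => c.fix hk hf
        decomp := fun h hh => ?_ }
    · exact Subgroup.mem_subgroupOf.2 (Subgroup.mem_inf.2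
        ⟨mul_mem (mul_mem (mul_mem (inv_mem ha) (inv_mem hb)) ha) hb, c.comm _ ha _ hb⟩)
    · obtain ⟨k, hk, z, hz, he, hzf⟩ := c.stab_decomp hθf x.2
      exact ⟨⟨k, (Subgroup.mem_inf.1 hk).2⟩, (Subgroup.mem_inf.1 hk).1, ⟨z, hz⟩,
        c.fixed_mem z hzf, Subtype.ext he⟩
    · refine ⟨(τ a).injective, fun n hn => hLσ a _ hn, fun m hm => ?_, fun n m h => ?_⟩
      · refine ⟨τ a⁻¹ m, hLσ a⁻¹ _ hm, ?_⟩
        show τ a (τ a⁻¹ m) = m
        rw [← MulAut.mul_apply, ← map_mul, mul_inv_cancel, map_one]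
        rfl
      · rw [hDc]
        exact hθf a (eT n) (eT m) (congrArg Subtype.val h).symm
    · obtain ⟨n, hn, z, he, hzf⟩ := c.decomp hh
      have hzT : z ∈ T := by
        have := mul_mem (inv_mem (hLT hn)) h.2
        rwa [show (h : G) = n * z from he, inv_mul_cancel_left] at this
      exact ⟨⟨n, hLT hn⟩, hn, ⟨z, hzT⟩, Subtype.ext he, fun a => Subtype.ext (hzf a)⟩
  obtain ⟨hex, huniq, hsurj⟩ := d.correspondence
  -- data inside `H`
  let θH : (K ⊓ H).subgroupOf H → ℂ := fun n => θ (Subgroup.subgroupOfEquivOfLe hLH n)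
  haveI : ((K ⊓ H).subgroupOf H).Normal := (c.normalL).subgroupOf H
  have hθH : IsIrrCharacter ((K ⊓ H).subgroupOf H) θH :=
    isIrrCharacter_comp_mulEquiv hθ (Subgroup.subgroupOfEquivOfLe hLH)
  have hTH : ∀ g : H, g ∈ T.subgroupOf H ↔ conjChar ((K ⊓ H).subgroupOf H) θH g = θH := by
    intro g
    rw [Subgroup.mem_subgroupOf, hT]
    refine ⟨fun h => funext fun n => ?_, fun h => funext fun n => ?_⟩
    · exact Eq.trans (congrArg θ (Subtype.ext rfl))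
        (congrFun h (Subgroup.subgroupOfEquivOfLe hLH n))
    · exact Eq.trans (congrArg θ (Subtype.ext rfl))
        (congrFun h ((Subgroup.subgroupOfEquivOfLe hLH).symm n))
  have hLTH : (K ⊓ H).subgroupOf H ≤ T.subgroupOf H := fun x hx => hLT hx
  set σH := restrictHom σ H c.mapH with hσH
  have hTσH : ∀ a, ∀ t ∈ T.subgroupOf H, σH a t ∈ T.subgroupOf H := fun a t ht => hTσ a _ ht
  have hLσH : ∀ a, ∀ n ∈ (K ⊓ H).subgroupOf H, σH a n ∈ (K ⊓ H).subgroupOf H := fun a n hn => hLσ a _ hn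
  have hθHf : IsFix σH ((K ⊓ H).subgroupOf H) θH := fun a x y hy =>
    hθf a _ _ (congrArg Subtype.val hy)
  -- `Over` at the stabilizer
  have hover : ∀ χ₀ : T → ℂ, classInner (fun n : ↥(K ⊓ H) => χ₀ ⟨(n : G), hLT n.2⟩) θ ≠ 0 →
      BaseRep.Over D χ₀ := by
    intro χ₀ h h0
    refine h (Eq.trans (classInner_comp_mulEquiv eT _ _).symm ?_)
    rw [← h0, hDc]
    congr 1
  have hdown : ∀ χ : IrrCharacter G, (∀ a x, (χ : G → ℂ) (σ a x) = (χ : G → ℂ) x) →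
      classInner (fun n : ↥(K ⊓ H) => (χ : G → ℂ) n) θ ≠ 0 →
      ∃ χ₀ : IrrCharacter T, indFun T (χ₀ : T → ℂ) = χ ∧
        classInner (fun n : ↥(K ⊓ H) => (χ₀ : T → ℂ) ⟨(n : G), hLT n.2⟩) θ ≠ 0 ∧
        ∀ a x, (χ₀ : T → ℂ) (τ a x) = (χ₀ : T → ℂ) x := by
    intro χ hχf hχ
    obtain ⟨χ₀, h1, h2, h3⟩ := exists_fixed_corr σ hθ hT hLT hTσ hLσ hθf χ.2 hχf hχ
    exact ⟨χ₀, h1, h2, fun a x => h3 a x _ rfl⟩
  have hdownH : ∀ η : IrrCharacter H,
      classInner (fun n : ↥(K ⊓ H) => (η : H → ℂ) ⟨(n : G), hLH n.2⟩) θ ≠ 0 →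
      ∃ ξ : IrrCharacter (H.subgroupOf T),
        indFun (T.subgroupOf H) (fun y => (ξ : H.subgroupOf T → ℂ) (swapEquiv T H y))
          = (η : H → ℂ) ∧
        classInner (fun n : ↥(K ⊓ H) => (ξ : H.subgroupOf T → ℂ) ⟨⟨(n : G), hLT n.2⟩, hLH n.2⟩) θ ≠ 0 ∧
        (IsFix σH ⊤ (fun y : (⊤ : Subgroup H) => (η : H → ℂ) y) →
          ∀ a, ∀ y y' : H.subgroupOf T, (y' : T) = τ a y →
            (ξ : H.subgroupOf T → ℂ) y' = (ξ : H.subgroupOf T → ℂ) y) := by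
    intro η hη
    have hη' : classInner (fun n : (K ⊓ H).subgroupOf H => (η : H → ℂ) n) θH ≠ 0 := fun h0 =>
      hη ((classInner_comp_mulEquiv (Subgroup.subgroupOfEquivOfLe hLH) _ _).symm.trans h0)
    obtain ⟨ψ, hψ, hind, hmult⟩ := exists_indFun_inertia_eq hθH hTH hLTH η.2 hη'
    refine ⟨⟨fun y => ψ ((swapEquiv T H).symm y),
      isIrrCharacter_comp_mulEquiv hψ (swapEquiv T H).symm⟩, ?_, ?_, fun hf a y y' hy => ?_⟩
    · simpa using hind
    · intro h0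
      refine hη' (Eq.trans hmult.symm ?_)
      exact (classInner_comp_mulEquiv (Subgroup.subgroupOfEquivOfLe hLH)
        (fun n : ↥(K ⊓ H) => ψ ((swapEquiv T H).symm ⟨⟨(n : G), hLT n.2⟩, hLH n.2⟩)) θ).trans h0
    · obtain ⟨ψ', hind', hne', hfix'⟩ := exists_fixed_corr σH hθH hTH hLTH hTσH hLσH hθHf η.2
        (fun b x => hf b ⟨x, Subgroup.mem_top _⟩ ⟨σH b x, Subgroup.mem_top _⟩ rfl) hη'
      have hψeq : (ψ' : T.subgroupOf H → ℂ) = ψ :=
        indFun_inertia_injective hθH hTH hLTH ψ'.2 hψ hne' (by rwa [hmult])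
          (hind'.trans hind.symm)
      show ψ _ = ψ _
      rw [← hψeq]
      exact hfix' a _ _ (Subtype.ext (congrArg (fun t : T => (t : G)) hy))
  have htrans : ∀ χ₀ : IrrCharacter T,
      classInner (fun n : ↥(K ⊓ H) => (χ₀ : T → ℂ) ⟨(n : G), hLT n.2⟩) θ ≠ 0 →
      ∀ ξ : IrrCharacter (H.subgroupOf T),
      classInner (fun n : ↥(K ⊓ H) => (ξ : H.subgroupOf T → ℂ) ⟨⟨(n : G), hLT n.2⟩, hLH n.2⟩) θ ≠ 0 →
      classInner (fun h : H => indFun T (χ₀ : T → ℂ) h)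
          (indFun (T.subgroupOf H) (fun y => (ξ : H.subgroupOf T → ℂ) (swapEquiv T H y)))
        = classInner (fun y : H.subgroupOf T => (χ₀ : T → ℂ) y) (ξ : H.subgroupOf T → ℂ) := by
    intro χ₀ h₀ ξ hξ
    obtain ⟨hirr, -⟩ := isIrrCharacter_indFun_inertia hθ hT hLT χ₀.2 h₀
    rw [classInner_indFun_right (T.subgroupOf H) _ (fun h : H => indFun T (χ₀ : T → ℂ) (h : G))
        (fun x y => IsIrrCharacter.isClassFunction hirr (x : G) (y : G)),
      ← classInner_res_stab hθ hT hLT hLH χ₀.2 h₀ ξ.2 hξ]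
    exact classInner_comp_mulEquiv (swapEquiv T H)
      (fun y : H.subgroupOf T => indFun T (χ₀ : T → ℂ) ((y : T) : G)) (ξ : H.subgroupOf T → ℂ)
  refine ⟨fun χ hχf hχ => ?_, fun χ χ' hχf hχf' hχ hχ' η hη ho ho' => ?_,
    fun η hηf hη => ?_⟩
  · obtain ⟨χ₀, hind, h₀, hf₀⟩ := hdown χ hχf hχ
    obtain ⟨ξ, hξ⟩ := hex χ₀ hf₀ (hover _ h₀)
    obtain ⟨m, hm, hmo⟩ := (hξ ξ).2 rfl
    obtain ⟨b, hb⟩ := BaseRep.mult_of_constituent D d.le χ₀.2 (hover _ h₀) ξ.2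
      (by rw [hm]; exact Nat.cast_ne_zero.2 fun h0 => by simp [h0] at hmo)
    have hξne : classInner
        (fun n : ↥(K ⊓ H) => (ξ : H.subgroupOf T → ℂ) ⟨⟨(n : G), hLT n.2⟩, hLH n.2⟩) θ ≠ 0 := by
      rw [show (fun n : ↥(K ⊓ H) => (ξ : H.subgroupOf T → ℂ) ⟨⟨(n : G), hLT n.2⟩, hLH n.2⟩) = b • θ from
        funext fun n => by
          rw [Pi.smul_apply, smul_eq_mul]
          refine Eq.trans (hb (eT.symm n)) ?_
          rw [hDc]
          simp, classInner_smul_left, classInner_self_of_isIrr hθ, mul_one]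
      refine fun hb0 => apply_one_ne_zero_of_isIrr ξ.2 ?_
      have h := hb 1
      rw [hb0, zero_mul] at h
      exact h
    have hξfix : IsFix σH (T.subgroupOf H)
        (fun y => (ξ : H.subgroupOf T → ℂ) (swapEquiv T H y)) := by
      intro a x y hy
      have hHσ : ∀ z ∈ H.subgroupOf T, τ a z ∈ H.subgroupOf T := fun z hz => c.mapH a _ hz
      have hξ' : (⟨fun z => (ξ : H.subgroupOf T → ℂ) (autRestrict (H.subgroupOf T) (τ a) hHσ z),
          isIrrCharacter_comp_mulEquiv ξ.2 _⟩ : IrrCharacter (H.subgroupOf T)) = ξ := by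
        refine (hξ _).1 ?_
        have h1 := BaseRep.oddMult_comp (τ a) hHσ ((hξ ξ).2 rfl)
        rwa [show (fun x => (χ₀ : T → ℂ) (τ a x)) = (χ₀ : T → ℂ) from funext (hf₀ a)] at h1
      conv_rhs => rw [← congrArg Subtype.val hξ']
      exact congrArg (ξ : H.subgroupOf T → ℂ) (Subtype.ext (Subtype.ext (congrArg (fun t : H => (t : G)) hy)))
    obtain ⟨hirrH, -⟩ := isIrrCharacter_indFun_inertia hθH hTH hLTH
      (isIrrCharacter_comp_mulEquiv ξ.2 (swapEquiv T H))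
      (fun h0 => hξne ((classInner_comp_mulEquiv (Subgroup.subgroupOfEquivOfLe hLH)
        (fun n : ↥(K ⊓ H) => (ξ : H.subgroupOf T → ℂ) ⟨⟨(n : G), hLT n.2⟩, hLH n.2⟩) θ).symm.trans h0))
    refine ⟨⟨_, hirrH⟩, fun a x y hy => ?_, ⟨m, ?_, hmo⟩, fun η hη ho => ?_⟩
    · have h := indFun_fixed σH hTσH hξfix a x
      rwa [show σH a x = y from Subtype.ext hy.symm] at h
    · rw [← hm, ← hind]
      exact htrans χ₀ h₀ ξ hξne
    · obtain ⟨ζ, hζ, hζne, -⟩ := hdownH η hη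
      obtain ⟨k, hk, hko⟩ := ho
      have hζξ : ζ = ξ := (hξ ζ).1 ⟨k, (htrans χ₀ h₀ ζ hζne).symm.trans (by rw [hind, hζ, hk]), hko⟩
      subst hζξ
      exact Subtype.ext hζ.symm
  · obtain ⟨χ₀, hind, h₀, hf₀⟩ := hdown χ hχf hχ
    obtain ⟨χ₀', hind', h₀', hf₀'⟩ := hdown χ' hχf' hχ'
    obtain ⟨ζ, hζ, hζne, -⟩ := hdownH η hη
    obtain ⟨k, hk, hko⟩ := ho
    obtain ⟨k', hk', hko'⟩ := ho'
    have h := huniq χ₀ χ₀' hf₀ hf₀' (hover _ h₀) (hover _ h₀') ζ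
      ⟨k, (htrans χ₀ h₀ ζ hζne).symm.trans (by rw [hind, hζ, hk]), hko⟩
      ⟨k', (htrans χ₀' h₀' ζ hζne).symm.trans (by rw [hind', hζ, hk']), hko'⟩
    exact Subtype.ext (by rw [← hind, ← hind', h])
  · obtain ⟨ζ, hζ, hζne, hζfix⟩ := hdownH η hη
    have hζf := hζfix fun a x y hy => hηf a x.1 y.1 (congrArg Subtype.val hy)
    have hζa : ∃ b : ℂ, ∀ n : D.N, (ζ : H.subgroupOf T → ℂ) ⟨(n : T), d.le n.2⟩
        = b * D.rep.character n := by
      have hinv' : ∀ g ∈ H.subgroupOf T, conjChar D.N D.rep.character g = D.rep.character :=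
        fun g _ => funext fun n => D.inv g n _ rfl
      refine ⟨_, fun n => congrFun (res_eq_of_invariant_of_le d.le
        (isIrrCharacter_character D.rep) hinv' ζ.2 fun h0 => hζne ?_) n⟩
      refine Eq.trans (classInner_comp_mulEquiv eT _ _).symm ?_
      rw [← h0, hDc]
      congr 1
    obtain ⟨χ₀, hf₀, hov, k, hk, hko⟩ := hsurj ζ hζf hζa
    have h₀ : classInner (fun n : ↥(K ⊓ H) => (χ₀ : T → ℂ) ⟨(n : G), hLT n.2⟩) θ ≠ 0 := fun h0 => hov <| by
      rw [hDc]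
      exact (classInner_comp_mulEquiv eT
        (fun n : ↥(K ⊓ H) => (χ₀ : T → ℂ) ⟨(n : G), hLT n.2⟩) θ).trans h0
    obtain ⟨hirrG, -⟩ := isIrrCharacter_indFun_inertia hθ hT hLT χ₀.2 h₀
    refine ⟨⟨_, hirrG⟩, fun a x => indFun_fixed σ hTσ (fun b u v huv => ?_) a x, k, ?_, hko⟩
    · rw [← hf₀ b u]
      exact congrArg (χ₀ : T → ℂ) (Subtype.ext huv)
    · rw [← hζ, ← hk]
      exact htrans χ₀ h₀ ζ hζne

end Ctx

end CfsgLib.IsaacsCorr
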