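import Cfsg.Agent.Lib.IsaacsCorr.Radical

/-!
# The correspondence over an invariant character with fixed point free operators

An invariant character `θ` of `L` has exactly one extension to the radical fixed by the operators;
restriction to `H` is an isometry on the characters of the product of the radical and `H` over it.
Together with the nondegenerate case this gives the correspondence of the characters of `X` fixed
by the operators with those of `H` over `θ`.
-/

set_option autoImplicit false
set_option linter.style.haveILetI false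
set_option linter.unusedSectionVars false

open scoped ComplexConjugate
open Cfsg CfsgLib.CharTheory CfsgLib.Frobenius CfsgLib.Clifford MonoidAlgebra

namespace CfsgLib.IsaacsCorr

/-- Some constituent of a restriction lies over a given constituent further down. -/
theorem exists_mid_constituent {X : Type*} [Group X] [Fintype X] {N T : Subgroup X} [Fintype N]
    [Fintype T] (hNT : N ≤ T) {χ : X → ℂ} (hχ : IsCharacter X χ) {θ : N → ℂ}
    (h : classInner (fun n : N => χ n) θ ≠ 0) :
    ∃ ψ : IrrCharacter T, classInner (fun t : T => χ t) (ψ : T → ℂ) ≠ 0 ∧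
      classInner (fun n : N => (ψ : T → ℂ) ⟨(n : X), hNT n.2⟩) θ ≠ 0 := by
  classical
  letI : Fintype (IrrCharacter T) := Fintype.ofFinite _
  obtain ⟨m, hm⟩ := IsCharacter.exists_sum (CfsgLib.Coherence.isCharacter_comp hχ T.subtype)
  by_contra hno
  push Not at hno
  refine h ?_
  rw [show (fun n : N => χ n)
      = ∑ ψ : IrrCharacter T, (m ψ : ℂ) • fun n : N => (ψ : T → ℂ) ⟨(n : X), hNT n.2⟩ from
    funext fun n => by simpa [Finset.sum_apply] using congrFun hm ⟨(n : X), hNT n.2⟩,
    classInner_sum_left]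
  refine Finset.sum_eq_zero fun ψ _ => ?_
  rw [classInner_smul_left]
  rcases eq_or_ne (m ψ) 0 with h0 | h0
  · rw [h0, Nat.cast_zero, zero_mul]
  · rw [hno ψ ?_, mul_zero]
    rw [show (fun t : T => χ t) = _ from hm, classInner_sum_irr]
    exact_mod_cast h0

/-- An irreducible character has a constituent on every subgroup. -/
theorem exists_constituent_res {X : Type*} [Group X] [Fintype X] {T : Subgroup X} [Fintype T]
    {χ : X → ℂ} (hχ : IsIrrCharacter X χ) :
    ∃ ψ : IrrCharacter T, classInner (fun t : T => χ t) (ψ : T → ℂ) ≠ 0 := by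
  classical
  letI : Fintype (IrrCharacter T) := Fintype.ofFinite _
  by_contra hno
  push Not at hno
  obtain ⟨m, hm⟩ := IsCharacter.exists_sum
    (CfsgLib.Coherence.isCharacter_comp (IsIrrCharacter.isCharacter hχ) T.subtype)
  refine apply_one_ne_zero_of_isIrr hχ ?_
  have h0 : ∀ ψ, (m ψ : ℂ) = 0 := fun ψ => by
    rw [← hno ψ, show (fun t : T => χ t) = _ from hm, classInner_sum_irr]
  have h1 := congrFun hm 1
  simp only [h0, zero_smul, Finset.sum_const_zero, Pi.zero_apply] at h1
  simpa using h1

/-- Every irreducible character of a subgroup has an irreducible character above it. -/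
theorem exists_irr_above {X : Type*} [Group X] [Fintype X] {T : Subgroup X} [Fintype T]
    {θ : T → ℂ} (hθ : IsIrrCharacter T θ) :
    ∃ χ : IrrCharacter X, classInner (fun t : T => (χ : X → ℂ) t) θ ≠ 0 := by
  classical
  letI : Fintype (IrrCharacter X) := Fintype.ofFinite _
  obtain ⟨m, hm⟩ := IsCharacter.exists_sum (isCharacter_indFun T θ (IsIrrCharacter.isCharacter hθ))
  by_contra hno
  push Not at hno
  refine mul_ne_zero (Nat.cast_ne_zero.2 (Subgroup.index_ne_zero_of_finite (H := T)))
    (apply_one_ne_zero_of_isIrr hθ) ?_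
  have h0 : ∀ χ, (m χ : ℂ) = 0 := fun χ => by
    rw [← classInner_sum_irr (fun ψ => (m ψ : ℂ)) χ, ← hm,
      classInner_indFun T θ _ (IsIrrCharacter.isClassFunction χ.2), classInner_conj_symm, hno χ,
      map_zero]
  rw [← indFun_one, hm]
  simp [h0]

variable {X : Type*} [Group X] [Fintype X] {A : Type*} [Group A] [Finite A]

namespace BaseRep

/-- A constituent of the restriction of a character over the base restricts to a multiple of
it. -/
theorem mult_of_constituent (D : BaseRep X) {T : Subgroup X} [Fintype T] (hT : D.N ≤ T)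
    {χ : X → ℂ} (hχ : IsIrrCharacter X χ) (h : Over D χ) {ξ : T → ℂ} (hξ : IsIrrCharacter T ξ)
    (hne : classInner (fun t : T => χ t) ξ ≠ 0) :
    ∃ a : ℂ, ∀ n : D.N, ξ ⟨(n : X), hT n.2⟩ = a * D.rep.character n := by
  classical
  letI : Fintype (IrrCharacter D.N) := Fintype.ofFinite _
  obtain ⟨m, hm⟩ := IsCharacter.exists_sum (CfsgLib.Coherence.isCharacter_comp
    (IsIrrCharacter.isCharacter hξ) (Subgroup.inclusion hT))
  obtain ⟨a, ha⟩ := h.res_eq hχ
  refine ⟨(m ⟨_, isIrrCharacter_character D.rep⟩ : ℂ), fun n => ?_⟩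
  have key : ∀ η : IrrCharacter D.N, (η : D.N → ℂ) ≠ D.rep.character → m η = 0 := by
    intro η hη
    obtain ⟨b, e, hb, he, hle⟩ := classInner_res_le hT (IsIrrCharacter.isCharacter hχ) η.2
      {(⟨ξ, hξ⟩ : IrrCharacter T)} (fun φ hφ => by rw [Finset.mem_singleton.1 hφ]; exact hne)
    rw [Finset.sum_singleton] at hle
    have hb0 : b = 0 := by
      rw [show (fun n : D.N => χ n) = a • D.rep.character from funext ha, classInner_smul_left,
        classInner_eq_zero_of_ne (isIrrCharacter_character D.rep) η.2 hη.symm, mul_zero] at hb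
      exact_mod_cast hb.symm
    have h1 : classInner (fun n : D.N => ξ ⟨(n : X), hT n.2⟩) (η : D.N → ℂ) = m η := by
      rw [show (fun n : D.N => ξ ⟨(n : X), hT n.2⟩) = _ from hm, classInner_sum_irr]
    rw [he ⟨ξ, hξ⟩, show e ⟨ξ, hξ⟩ = 0 by omega] at h1
    exact_mod_cast h1.symm
  refine (congrFun hm n).trans ?_
  rw [Finset.sum_apply,
    Finset.sum_eq_single ⟨_, isIrrCharacter_character D.rep⟩ (fun η _ hη => ?_)
      (fun h => absurd (Finset.mem_univ _) h)]
  · rfl
  · rw [key η fun e => hη (Subtype.ext e)]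
    simp

variable {D : BaseRep X} {K H : Subgroup X} {σ : A →* MulAut X}

theorem Data.exists_kc (d : Data D K H σ) (x : X) :
    ∃ k ∈ K, ∃ c : X, x = k * c ∧ ∀ a, σ a c = c := by
  obtain ⟨k, hk, h, hh, rfl⟩ := d.sup x
  obtain ⟨n, hn, c, rfl, hc⟩ := d.decomp h hh
  exact ⟨k * n, mul_mem hk (d.sec.le hn), c, (mul_assoc _ _ _).symm, hc⟩

theorem Data.base_fixed (d : Data D K H σ) (a : A) (n m : D.N) (h : (m : X) = σ a n) :
    D.rep.character m = D.rep.character n :=
  (d.map a).char n m h.symm

/-- The automorphism of the radical given by an operator. -/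
noncomputable def Data.radAut (d : Data D K H σ) (a : A) : rad d.sec ≃* rad d.sec :=
  autRestrict (rad d.sec) (σ a) fun _ hm => d.map_rad a hm

theorem Data.coe_radAut (d : Data D K H σ) (a : A) (m : rad d.sec) :
    ((d.radAut a m : rad d.sec) : X) = σ a m := rfl

theorem Data.radAut_mul (d : Data D K H σ) (a b : A) (m : rad d.sec) :
    d.radAut (a * b) m = d.radAut a (d.radAut b m) :=
  Subtype.ext (by simp [coe_radAut, map_mul])

/-- An extension of the base character to the radical. -/
def IsExt (hK : D.Sec K) (ξ : rad hK → ℂ) : Prop :=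
  IsIrrCharacter (rad hK) ξ ∧
    ∀ n : D.N, ξ (Subgroup.inclusion (le_rad hK) n) = D.rep.character n

theorem Data.isExt_comp (d : Data D K H σ) {ξ : rad d.sec → ℂ} (hξ : IsExt d.sec ξ) (a : A) :
    IsExt d.sec (fun m => ξ (d.radAut a m)) := by
  refine ⟨isIrrCharacter_comp_mulEquiv hξ.1 _, fun n => ?_⟩
  show ξ (d.radAut a (Subgroup.inclusion (le_rad d.sec) n)) = _
  have hn : σ a (n : X) ∈ D.N := (d.map a).mem n n.2
  rw [show d.radAut a (Subgroup.inclusion (le_rad d.sec) n)
    = Subgroup.inclusion (le_rad d.sec) ⟨σ a n, hn⟩ from Subtype.ext rfl, hξ.2]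
  exact d.base_fixed a n _ rfl

theorem IsExt.eq_one {hK : D.Sec K} {ξ : rad hK → ℂ} (hξ : IsExt hK ξ) {l : rad hK →* ℂˣ}
    (hl : ∀ n : D.N, l (Subgroup.inclusion (le_rad hK) n) = 1) (h : linFun l * ξ = ξ) : l = 1 := by
  haveI : (D.N.subgroupOf (rad hK)).Normal := D.normal.subgroupOf _
  refine eq_one_of_linFun_mul (N := D.N.subgroupOf (rad hK)) hξ.1 ?_
    (fun n => hl ⟨(n : X), n.2⟩) h
  have e : (fun n : D.N.subgroupOf (rad hK) => ξ n)
      = fun n => D.rep.character (Subgroup.subgroupOfEquivOfLe (le_rad hK) n) :=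
    funext fun n => by
      rw [← hξ.2]
      exact congrArg ξ (Subtype.ext rfl)
  rw [e]
  exact isIrrCharacter_comp_mulEquiv (isIrrCharacter_character D.rep) _

theorem IsExt.exists_twist {hK : D.Sec K} {ξ ξ' : rad hK → ℂ} (hξ : IsExt hK ξ)
    (hξ' : IsExt hK ξ') : ∃ l : rad hK →* ℂˣ,
      (∀ n : D.N, l (Subgroup.inclusion (le_rad hK) n) = 1) ∧ ξ' = linFun l * ξ := by
  haveI : (D.N.subgroupOf (rad hK)).Normal := D.normal.subgroupOf _
  let e := Subgroup.subgroupOfEquivOfLe (le_rad hK)
  obtain ⟨l, hl, he⟩ := exists_linFun_of_extensions (N := D.N.subgroupOf (rad hK))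
    (θ := fun n => D.rep.character (e n))
    (isIrrCharacter_comp_mulEquiv (isIrrCharacter_character D.rep) e) hξ.1
    (fun n => by rw [← hξ.2]; exact congrArg ξ (Subtype.ext rfl)) hξ'.1
    (fun n => by rw [← hξ'.2]; exact congrArg ξ' (Subtype.ext rfl))
  exact ⟨l, fun n => hl (e.symm n), he⟩

theorem linHom_pow_card {M : Type*} [Group M] [Finite M] (l : M →* ℂˣ) : l ^ Nat.card M = 1 :=
  MonoidHom.ext fun x => by rw [MonoidHom.pow_apply, ← map_pow, pow_card_eq_one', map_one]; rfl

theorem Data.exists_fixedExt (d : Data D K H σ) :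
    ∃ φ : rad d.sec → ℂ, IsExt d.sec φ ∧ ∀ a m, φ (d.radAut a m) = φ m := by
  classical
  haveI : Fintype A := Fintype.ofFinite A
  letI : Fintype (rad d.sec) := Fintype.ofFinite _
  obtain ⟨χ, hχ⟩ := exists_irr_above (T := D.N) (isIrrCharacter_character D.rep)
  obtain ⟨ξ₀, -, hξ₀⟩ := exists_mid_constituent (le_rad d.sec) (IsIrrCharacter.isCharacter χ.2) hχ
  set ξ : rad d.sec → ℂ := (ξ₀ : rad d.sec → ℂ)
  have hξ : IsExt d.sec ξ := ⟨ξ₀.2, res_rad_eq d.sec ξ₀.2 hξ₀⟩
  choose l hlN hl using fun a => hξ.exists_twist (d.isExt_comp hξ a)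
  have hl' : ∀ a m, ξ (d.radAut a m) = (l a m : ℂ) * ξ m := fun a m => congrFun (hl a) m
  have hcoc : ∀ a b, l (a * b) = (l a).comp (d.radAut b).toMonoidHom * l b := fun a b => by
    refine mul_inv_eq_one.1 (hξ.eq_one (fun n => ?_) (funext fun m => ?_))
    · rw [MonoidHom.mul_apply, MonoidHom.inv_apply, MonoidHom.mul_apply, hlN, hlN b, one_mul,
        mul_one, inv_eq_one, MonoidHom.comp_apply]
      have hn : σ b (n : X) ∈ D.N := (d.map b).mem n n.2
      rw [show (d.radAut b).toMonoidHom (Subgroup.inclusion (le_rad d.sec) n)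
        = Subgroup.inclusion (le_rad d.sec) ⟨σ b n, hn⟩ from Subtype.ext rfl, hlN]
    · have h2 := hl' (a * b) m
      rw [d.radAut_mul, hl', hl', ← mul_assoc] at h2
      rw [Pi.mul_apply, linFun_apply, MonoidHom.mul_apply, MonoidHom.inv_apply,
        MonoidHom.mul_apply, MonoidHom.comp_apply, Units.val_mul, mul_comm (l (a * b) m : ℂ),
        mul_assoc, ← h2, ← mul_assoc, MulEquiv.coe_toMonoidHom, ← Units.val_mul, ← Units.val_mul,
        inv_mul_cancel, Units.val_one, one_mul]
  have hcopM : (Nat.card A).Coprime (Nat.card (rad d.sec)) :=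
    d.cop.coprime_dvd_right (Subgroup.card_subgroup_dvd_card _)
  set p : rad d.sec →* ℂˣ := ∏ a, l a with hp
  obtain ⟨i, hi⟩ := exists_pow_eq_self_of_coprime (x := p)
    (Nat.Coprime.coprime_dvd_right (orderOf_dvd_of_pow_eq_one (linHom_pow_card p)) hcopM)
  set t := p ^ i with ht
  have htn : t ^ Nat.card A = p := MonoidHom.ext fun m => by
    have h0 := DFunLike.congr_fun hi m
    simp only [MonoidHom.pow_apply] at h0
    simp only [ht, MonoidHom.pow_apply]
    rw [← pow_mul, mul_comm, pow_mul, h0]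
  have hpb : ∀ b, p = p.comp (d.radAut b).toMonoidHom * l b ^ Nat.card A := fun b => by
    refine MonoidHom.ext fun m => ?_
    simp only [hp, MonoidHom.mul_apply, MonoidHom.comp_apply, MonoidHom.finsetProd_apply,
      MonoidHom.pow_apply]
    rw [Nat.card_eq_fintype_card, ← Finset.card_univ, ← Finset.prod_const,
      ← Finset.prod_mul_distrib]
    exact ((Finset.prod_congr rfl fun a _ => by rw [Equiv.coe_mulRight, hcoc]; rfl).trans
      (Equiv.prod_comp (Equiv.mulRight b) fun a => l a m)).symm
  have htb : ∀ b, t.comp (d.radAut b).toMonoidHom * l b = t := fun b => by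
    refine Clifford.eq_of_pow_coprime (m := Nat.card (rad d.sec)) (k := Nat.card A) hcopM.symm
      (linHom_pow_card _) ?_
    refine MonoidHom.ext fun m => ?_
    have h0 := DFunLike.congr_fun (hpb b) m
    simp only [← htn, MonoidHom.mul_apply, MonoidHom.comp_apply, MonoidHom.pow_apply] at h0
    simp only [MonoidHom.mul_apply, MonoidHom.comp_apply, MonoidHom.pow_apply, mul_pow]
    exact h0.symm
  refine ⟨linFun t * ξ, ⟨isIrrCharacter_linFun_mul t hξ.1, fun n => ?_⟩, fun b m => ?_⟩
  · have hpn : p (Subgroup.inclusion (le_rad d.sec) n) = 1 := by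
      rw [hp, MonoidHom.finsetProd_apply]
      exact Finset.prod_eq_one fun a _ => hlN a n
    rw [Pi.mul_apply, linFun_apply, ht, MonoidHom.pow_apply, hpn, one_pow, Units.val_one, one_mul,
      hξ.2]
  · have h3 : t (d.radAut b m) * l b m = t m := DFunLike.congr_fun (htb b) m
    simp only [Pi.mul_apply, linFun_apply]
    rw [hl', ← mul_assoc, ← Units.val_mul, h3]

theorem Data.fixedExt_unique (d : Data D K H σ) {φ φ' : rad d.sec → ℂ} (hφ : IsExt d.sec φ)
    (hφ' : IsExt d.sec φ') (hf : ∀ a m, φ (d.radAut a m) = φ m)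
    (hf' : ∀ a m, φ' (d.radAut a m) = φ' m) : φ' = φ := by
  classical
  haveI : Fintype A := Fintype.ofFinite A
  obtain ⟨l, hlN, rfl⟩ := hφ.exists_twist hφ'
  suffices l = 1 by
    subst this
    funext m
    simp
  have hlfix : ∀ a, l.comp (d.radAut a).toMonoidHom = l := fun a => by
    refine mul_inv_eq_one.1 (hφ.eq_one (fun n => ?_) (funext fun m => ?_))
    · have hn : σ a (n : X) ∈ D.N := (d.map a).mem n n.2
      rw [MonoidHom.mul_apply, MonoidHom.inv_apply, hlN, inv_one, mul_one, MonoidHom.comp_apply,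
        show (d.radAut a).toMonoidHom (Subgroup.inclusion (le_rad d.sec) n)
          = Subgroup.inclusion (le_rad d.sec) ⟨σ a n, hn⟩ from Subtype.ext rfl, hlN]
    · have h1 := hf' a m
      simp only [Pi.mul_apply, linFun_apply, hf a m] at h1
      rw [Pi.mul_apply, linFun_apply, MonoidHom.mul_apply, MonoidHom.inv_apply, Units.val_mul,
        MonoidHom.comp_apply, MulEquiv.coe_toMonoidHom, mul_comm ((l (d.radAut a m) : ℂˣ) : ℂ),
        mul_assoc, h1, ← mul_assoc, ← Units.val_mul, inv_mul_cancel, Units.val_one, one_mul]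
  haveI := rad_normal d.sec
  let N'' : Subgroup (rad d.sec) := D.N.subgroupOf (rad d.sec)
  haveI : N''.Normal := D.normal.subgroupOf _
  letI : CommGroup (rad d.sec ⧸ N'') :=
    { (inferInstance : Group (rad d.sec ⧸ N'')) with
      mul_comm := fun p q => by
        induction p using QuotientGroup.induction_on with
        | H p =>
          induction q using QuotientGroup.induction_on with
          | H q =>
            rw [← QuotientGroup.mk_mul, ← QuotientGroup.mk_mul, QuotientGroup.eq,
              Subgroup.mem_subgroupOf]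
            simpa [mul_assoc] using d.sec.comm q q.2.1 p p.2.1 }
  let q : rad d.sec →* rad d.sec ⧸ N'' := QuotientGroup.mk' N''
  refine MonoidHom.ext fun m => ?_
  obtain ⟨p, hp⟩ := QuotientGroup.mk'_surjective N'' (∏ a, q (d.radAut a m))
  have hpN : (p : X) ∈ D.N := by
    refine d.fix p p.2.1 fun a => ?_
    have hcomap : N'' ≤ N''.comap (d.radAut a).toMonoidHom := fun z hz => by
      rw [Subgroup.mem_comap, Subgroup.mem_subgroupOf]
      exact (d.map a).mem _ hz
    let ψ : (rad d.sec ⧸ N'') →* (rad d.sec ⧸ N'') :=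
      QuotientGroup.map N'' N'' (d.radAut a).toMonoidHom hcomap
    have h1 : ψ (q p) = q p := by
      rw [show q p = ∏ b, q (d.radAut b m) from hp, map_prod]
      refine (Finset.prod_congr rfl fun b _ => ?_).trans
        (Equiv.prod_comp (Equiv.mulLeft a) (fun b => q (d.radAut b m)))
      exact congrArg q (d.radAut_mul a b m).symm
    have h2 := QuotientGroup.eq.1 (h1.symm : (QuotientGroup.mk p : rad d.sec ⧸ N'')
      = QuotientGroup.mk (d.radAut a p))
    rw [Subgroup.mem_subgroupOf] at h2
    exact h2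
  let lbar : (rad d.sec ⧸ N'') →* ℂˣ := QuotientGroup.lift N'' l fun z hz => hlN ⟨(z : X), hz⟩
  have h3 : l m ^ Nat.card A = 1 := by
    have h4 := congrArg lbar hp
    rw [map_prod, show lbar (QuotientGroup.mk' N'' p) = 1 from hlN ⟨(p : X), hpN⟩] at h4
    rw [h4, Nat.card_eq_fintype_card, ← Finset.card_univ, ← Finset.prod_const]
    exact Finset.prod_congr rfl fun a _ => (DFunLike.congr_fun (hlfix a) m).symm
  have h5 := pow_gcd_eq_one.2 ⟨h3, show l m ^ Nat.card (rad d.sec) = 1 by
    rw [← MonoidHom.pow_apply, linHom_pow_card]; rfl⟩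
  rwa [Nat.Coprime.gcd_eq_one (d.cop.coprime_dvd_right (Subgroup.card_subgroup_dvd_card _)),
    pow_one] at h5

/-- The fixed extension is invariant in `X`. -/
theorem Data.fixedExt_inv (d : Data D K H σ) {φ : rad d.sec → ℂ} (hφ : IsExt d.sec φ)
    (hf : ∀ a m, φ (d.radAut a m) = φ m) (x : X) (n m : rad d.sec)
    (hm : (m : X) = x * n * x⁻¹) : φ m = φ n := by
  haveI := rad_normal d.sec
  obtain ⟨k, hk, c, rfl, hc⟩ := d.exists_kc x
  let φ' : rad d.sec → ℂ := fun r => φ (MulAut.conjNormal c r)
  have hφ'ext : IsExt d.sec φ' := by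
    refine ⟨isIrrCharacter_comp_mulEquiv hφ.1 _, fun r => ?_⟩
    show φ (MulAut.conjNormal c (Subgroup.inclusion (le_rad d.sec) r)) = _
    rw [show (MulAut.conjNormal c (Subgroup.inclusion (le_rad d.sec) r) : rad d.sec)
      = Subgroup.inclusion (le_rad d.sec) ⟨c * r * c⁻¹, D.normal.conj_mem _ r.2 c⟩ from
        Subtype.ext (by simp [MulAut.conjNormal_apply]), hφ.2]
    exact D.inv c r _ rfl
  have hfix' : ∀ a r, φ' (d.radAut a r) = φ' r := fun a r => by
    show φ (MulAut.conjNormal c (d.radAut a r)) = φ (MulAut.conjNormal c r)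
    rw [← hf a (MulAut.conjNormal c r)]
    refine congrArg φ (Subtype.ext ?_)
    simp [MulAut.conjNormal_apply, coe_radAut, hc a]
  have h1 : φ (MulAut.conjNormal c n) = φ n :=
    congrFun (d.fixedExt_unique hφ hφ'ext hf hfix') n
  rw [← h1]
  refine conj_rad_eq d.sec hφ.1 hφ.2 (inv_mem hk) _ _ ?_
  rw [hm, MulAut.conjNormal_apply]
  group

/-- The base representation at the radical. -/
structure Upper (d : Data D K H σ) (D' : BaseRep X) : Prop where
  le : D.N ≤ D'.N
  mem : ∀ x, x ∈ D'.N ↔ x ∈ rad d.sec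
  res : ∀ n : D.N, D'.rep.character (Subgroup.inclusion le n) = D.rep.character n
  fixed : ∀ (a : A) (n m : D'.N), (m : X) = σ a n → D'.rep.character m = D'.rep.character n

theorem Data.exists_upper (d : Data D K H σ) :
    ∃ D' : BaseRep X, Upper d D' ∧
      ∀ χ : X → ℂ, IsIrrCharacter X χ → (∀ a x, χ (σ a x) = χ x) → Over D χ → Over D' χ := by
  classical
  letI : Fintype (rad d.sec) := Fintype.ofFinite _
  haveI := rad_normal d.sec
  obtain ⟨φ, hφ, hf⟩ := d.exists_fixedExt
  obtain ⟨dd, ρ, hirr, hinv, hc⟩ := exists_of_irr hφ.1 (d.fixedExt_inv hφ hf)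
  refine ⟨⟨rad d.sec, rad_normal d.sec, dd, ρ, hirr, hinv⟩, ⟨le_rad d.sec, fun _ => Iff.rfl,
    fun n => ?_, fun a n m h => ?_⟩, fun χ hχ hχi hover => ?_⟩
  · exact (congrFun hc _).trans (hφ.2 n)
  · refine ((congrFun hc m).trans ?_).trans (congrFun hc n).symm
    rw [show m = d.radAut a n from Subtype.ext h]
    exact hf a n
  · obtain ⟨ξ, hξχ, hξD⟩ := exists_mid_constituent (le_rad d.sec) (IsIrrCharacter.isCharacter hχ)
      hover
    have hξ : IsExt d.sec (ξ : rad d.sec → ℂ) := ⟨ξ.2, res_rad_eq d.sec ξ.2 hξD⟩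
    have hξfix : ∀ a m, (ξ : rad d.sec → ℂ) (d.radAut a m) = (ξ : rad d.sec → ℂ) m := by
      intro a
      have hcons : classInner (fun m : rad d.sec => χ m)
          (fun m => (ξ : rad d.sec → ℂ) (d.radAut a m)) ≠ 0 := by
        rw [show (fun m : rad d.sec => χ m)
            = fun m => (fun r : rad d.sec => χ r) (d.radAut a m) from
          funext fun m => (hχi a m).symm]
        rw [classInner_comp_mulEquiv (d.radAut a) (fun r : rad d.sec => χ r) (ξ : rad d.sec → ℂ)]
        exact hξχ
      obtain ⟨g, hg⟩ := exists_conj_of_constituents (rad d.sec) hχ ξ.2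
        (isIrrCharacter_comp_mulEquiv ξ.2 (d.radAut a)) hξχ hcons
      obtain ⟨k, hk, c, rfl, hcfix⟩ := d.exists_kc g
      have hac : ∀ m, (ξ : rad d.sec → ℂ) (d.radAut a m)
          = (ξ : rad d.sec → ℂ) (MulAut.conjNormal c m) := fun m => by
        refine (congrFun hg m).trans ?_
        rw [conjChar_apply]
        refine conj_rad_eq d.sec hξ.1 hξ.2 (inv_mem hk) _ _ ?_
        simp only [MulAut.conjNormal_apply]
        group
      have hpow : ∀ (i : ℕ) m, (ξ : rad d.sec → ℂ) (d.radAut (a ^ i) m)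
          = (ξ : rad d.sec → ℂ) (MulAut.conjNormal (c ^ i) m) := by
        intro i
        induction i with
        | zero => intro m; exact congrArg _ (Subtype.ext (by simp [coe_radAut]))
        | succ i ih =>
          intro m
          rw [pow_succ a i, d.radAut_mul, ih,
            show MulAut.conjNormal (c ^ i) (d.radAut a m)
              = d.radAut a (MulAut.conjNormal (c ^ i) m) from Subtype.ext (by
                simp [MulAut.conjNormal_apply, coe_radAut, map_pow (σ a) c i, hcfix a, -map_pow]), hac]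
          refine congrArg _ (Subtype.ext ?_)
          simp only [MulAut.conjNormal_apply]
          group
      obtain ⟨j, hj⟩ := exists_pow_eq_self_of_coprime (x := a) (n := orderOf c)
        ((d.cop.symm.coprime_dvd_left (orderOf_dvd_natCard c)).coprime_dvd_right
          (orderOf_dvd_natCard a))
      intro m
      conv_lhs => rw [← hj, ← pow_mul]
      rw [hpow, pow_mul, pow_orderOf_eq_one, one_pow]
      simp
    have heq := d.fixedExt_unique hφ hξ hf hξfix
    intro h0
    refine hξχ ?_
    rw [heq, ← hc]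
    exact h0

end BaseRep

end CfsgLib.IsaacsCorr
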