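import Cfsg.Agent.Lib.Clifford.Basic

/-!
# The idempotent of an invariant character of a normal subgroup

For a normal subgroup `N` of a finite group `X` and an `X`-invariant irreducible character of `N`,
afforded by a representation `ρ`, the central idempotent `idem` of the group algebra of `X`, and
the identification of `C[N] * idem` with the full endomorphism algebra of the space of `ρ`.
-/

set_option autoImplicit false
set_option linter.style.haveILetI false
set_option linter.unusedSectionVars false

open scoped ComplexConjugate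
open Cfsg CfsgLib.CharTheory MonoidAlgebra

namespace CfsgLib.IsaacsCorr

/-- An invariant irreducible character of a normal subgroup, with an affording representation. -/
structure BaseRep (X : Type*) [Group X] where
  /-- the normal subgroup -/
  N : Subgroup X
  normal : N.Normal
  /-- the degree -/
  d : ℕ
  /-- the representation -/
  rep : Representation ℂ N (Fin d → ℂ)
  irr : rep.IsIrreducible
  inv : ∀ (x : X) (n m : N), (m : X) = x * n * x⁻¹ → rep.character m = rep.character n

variable {X : Type*} [Group X] [Fintype X]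

namespace BaseRep

variable (D : BaseRep X)

instance : D.N.Normal := D.normal

instance : D.rep.IsIrreducible := D.irr

noncomputable instance : Fintype D.N := Fintype.ofFinite _

/-- Existence of a base representation for an invariant character. -/
theorem exists_of_irr {N : Subgroup X} [hN : N.Normal] {φ : N → ℂ} (hφ : IsIrrCharacter N φ)
    (hinv : ∀ (x : X) (n m : N), (m : X) = x * n * x⁻¹ → φ m = φ n) :
    ∃ (d : ℕ) (ρ : Representation ℂ N (Fin d → ℂ)) (hirr : ρ.IsIrreducible)
      (h : ∀ (x : X) (n m : N), (m : X) = x * n * x⁻¹ → ρ.character m = ρ.character n),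
      (⟨N, hN, d, ρ, hirr, h⟩ : BaseRep X).rep.character = φ := by
  obtain ⟨d, ρ, hρ, rfl⟩ := hφ
  exact ⟨d, ρ, hρ, hinv, rfl⟩

/-- The inclusion of group algebras. -/
noncomputable def inc : MonoidAlgebra ℂ D.N →ₐ[ℂ] MonoidAlgebra ℂ X :=
  mapDomainAlgHom ℂ ℂ D.N.subtype

theorem inc_single (n : D.N) (c : ℂ) : D.inc (single n c) = single (n : X) c := by
  simp [inc]

theorem inc_injective : Function.Injective D.inc := by
  intro a b h
  exact mapDomain_injective (f := (D.N.subtype : D.N → X)) Subtype.val_injective (by simpa [inc] using h)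

theorem d_pos : 0 < D.d := by
  have h := finrank_pos_of_isIrreducible D.rep
  simpa using h

/-- The idempotent in the group algebra of `N`. -/
noncomputable def idemN : MonoidAlgebra ℂ D.N :=
  ∑ n : D.N, single n ((D.d : ℂ) / Nat.card D.N * D.rep.character n⁻¹)

/-- The idempotent in the group algebra of `X`. -/
noncomputable def idem : MonoidAlgebra ℂ X := D.inc D.idemN

theorem coeff_mul_idemN (b : MonoidAlgebra ℂ D.N) (g : D.N) :
    (b * D.idemN).coeff g = (D.d : ℂ) / Nat.card D.N *
      LinearMap.trace ℂ _ (D.rep.asAlgebraHom b * D.rep g⁻¹) := by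
  classical
  induction b using MonoidAlgebra.induction_on with
  | of m =>
    rw [MonoidAlgebra.of_apply, coeff_single_mul_apply, one_mul, idemN, coeff_sum,
      Finset.sum_apply', Finset.sum_eq_single (m⁻¹ * g)]
    · rw [coeff_single, Finsupp.single_eq_same, Representation.asAlgebraHom_single_one, ← map_mul,
        mul_inv_rev, inv_inv]
      congr 1
      exact (D.rep.char_mul_comm m g⁻¹)
    · intro n _ hn
      rw [coeff_single, Finsupp.single_eq_of_ne hn.symm]
    · exact fun h => absurd (Finset.mem_univ _) h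
  | add x y hx hy => simp [add_mul, hx, hy, mul_add]
  | smul r x hx => simp [hx]; ring

theorem asAlgebraHom_idemN : D.rep.asAlgebraHom D.idemN = 1 := by
  have hval : D.rep.asAlgebraHom D.idemN
      = ∑ n : D.N, ((D.d : ℂ) / Nat.card D.N * D.rep.character n⁻¹) • D.rep n := by
    simp [idemN, map_sum]
  have hcomm : ∀ g : D.N, (D.rep.asAlgebraHom D.idemN) ∘ₗ D.rep g
      = D.rep g ∘ₗ D.rep.asAlgebraHom D.idemN := by
    intro g
    rw [hval]
    simp only [← Module.End.mul_eq_comp, Finset.sum_mul, Finset.mul_sum, smul_mul_assoc,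
      mul_smul_comm, ← map_mul]
    refine Fintype.sum_equiv (MulAut.conj g⁻¹).toEquiv _ _ fun n => ?_
    simp only [MulEquiv.toEquiv_eq_coe, EquivLike.coe_coe, MulAut.conj_apply, inv_inv, mul_inv_rev]
    rw [show g * (g⁻¹ * n * g) = n * g by group]
    congr 2
    have := D.rep.char_conj n⁻¹ g⁻¹
    rw [inv_inv] at this
    rw [show g⁻¹ * (n⁻¹ * g) = g⁻¹ * n⁻¹ * g by group, this]
  obtain ⟨c, hc⟩ := exists_smul_of_commute D.rep _ hcomm
  have htr : LinearMap.trace ℂ _ (D.rep.asAlgebraHom D.idemN) = (D.d : ℂ) := by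
    rw [hval, map_sum]
    simp only [map_smul, smul_eq_mul]
    have h1 : classInner D.rep.character D.rep.character = 1 :=
      classInner_self_of_isIrr (isIrrCharacter_character D.rep)
    rw [classInner_eq_sum_inv (isCharacter_character D.rep)] at h1
    calc ∑ n : D.N, (D.d : ℂ) / Nat.card D.N * D.rep.character n⁻¹ * LinearMap.trace ℂ _ (D.rep n)
        = (D.d : ℂ) * ((Nat.card D.N : ℂ)⁻¹ * ∑ n : D.N, D.rep.character n * D.rep.character n⁻¹) := by
          rw [Finset.mul_sum, Finset.mul_sum]
          exact Finset.sum_congr rfl fun n _ => by unfold Representation.character; ring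
      _ = (D.d : ℂ) := by rw [h1, mul_one]
  rw [hc, map_smul, LinearMap.trace_id, smul_eq_mul, Module.finrank_fin_fun] at htr
  have : c = 1 := mul_right_cancel₀ (Nat.cast_ne_zero.2 D.d_pos.ne') (htr.trans (one_mul _).symm)
  rw [hc, this, one_smul]
  rfl

theorem mul_idemN_eq_of_apply_eq {a b : MonoidAlgebra ℂ D.N}
    (h : D.rep.asAlgebraHom a = D.rep.asAlgebraHom b) : a * D.idemN = b * D.idemN := by
  ext g
  rw [coeff_mul_idemN, coeff_mul_idemN, h]

theorem idemN_mul_self : D.idemN * D.idemN = D.idemN := by
  have := D.mul_idemN_eq_of_apply_eq (a := D.idemN) (b := 1) (by rw [D.asAlgebraHom_idemN, map_one])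
  rwa [one_mul] at this

theorem idem_mul_self : D.idem * D.idem = D.idem := by
  rw [idem, ← map_mul, idemN_mul_self]

theorem idem_eq_sum : D.idem
    = ∑ n : D.N, single (n : X) ((D.d : ℂ) / Nat.card D.N * D.rep.character n⁻¹) := by
  simp [idem, idemN, map_sum, inc_single]

theorem idem_ne_zero : D.idem ≠ 0 := by
  intro h
  have h0 : D.idemN = 0 := D.inc_injective (by simpa [idem] using h)
  have h1 := D.asAlgebraHom_idemN
  rw [h0, map_zero] at h1
  haveI : Nonempty (Fin D.d) := ⟨⟨0, D.d_pos⟩⟩
  exact zero_ne_one h1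

theorem single_mul_idem (x : X) : single x 1 * D.idem = D.idem * single x 1 := by
  classical
  rw [idem_eq_sum, Finset.mul_sum, Finset.sum_mul]
  refine Fintype.sum_equiv (MulAut.conjNormal x : MulAut D.N).toEquiv _ _ fun n => ?_
  have hc : D.rep.character ((MulAut.conjNormal x : MulAut D.N) n)⁻¹ = D.rep.character n⁻¹ := by
    refine D.inv x n⁻¹ _ ?_
    rw [← map_inv, MulAut.conjNormal_apply]
  simp only [MulEquiv.toEquiv_eq_coe, EquivLike.coe_coe, MulAut.conjNormal_apply, single_mul_single,
    one_mul, mul_one, hc]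
  congr 1
  group

theorem commute_idem (y : MonoidAlgebra ℂ X) : y * D.idem = D.idem * y := by
  induction y using MonoidAlgebra.induction_on with
  | of x => rw [MonoidAlgebra.of_apply]; exact D.single_mul_idem x
  | add a b ha hb => rw [add_mul, mul_add, ha, hb]
  | smul r a ha => rw [smul_mul_assoc, ha, mul_smul_comm]

/-- The representation is onto the endomorphism algebra. -/
theorem asAlgebraHom_surjective (T : Module.End ℂ (Fin D.d → ℂ)) :
    ∃ b : MonoidAlgebra ℂ D.N, D.rep.asAlgebraHom b = T := by
  classical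
  have hd : (D.d : ℂ) ≠ 0 := Nat.cast_ne_zero.2 D.d_pos.ne'
  have hN : (Nat.card D.N : ℂ) ≠ 0 := Nat.cast_ne_zero.2 Nat.card_pos.ne'
  -- the average of a rank one map is a scalar
  have havg : ∀ (f : (Fin D.d → ℂ) →ₗ[ℂ] ℂ) (x y : Fin D.d → ℂ),
      ∑ n : D.N, f (D.rep n⁻¹ y) • D.rep n x = ((Nat.card D.N : ℂ) / D.d * f x) • y := by
    intro f x y
    let S : Module.End ℂ (Fin D.d → ℂ) := ∑ n : D.N, D.rep n ∘ₗ (f.smulRight x) ∘ₗ D.rep n⁻¹
    have hS : ∀ g, S ∘ₗ D.rep g = D.rep g ∘ₗ S := by
      intro g
      refine LinearMap.ext fun v => ?_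
      simp only [S, LinearMap.comp_apply, LinearMap.sum_apply, LinearMap.smulRight_apply, map_sum,
        map_smul, ← Module.End.mul_apply, ← map_mul]
      refine Fintype.sum_equiv (Equiv.mulLeft g⁻¹) _ _ fun n => ?_
      simp [mul_assoc]
    obtain ⟨c, hc⟩ := exists_smul_of_commute D.rep S hS
    have htr : LinearMap.trace ℂ _ S = (Nat.card D.N : ℂ) * f x := by
      rw [show S = ∑ n : D.N, D.rep n * (f.smulRight x) * D.rep n⁻¹ from
        Finset.sum_congr rfl fun n _ => rfl, map_sum]
      rw [Finset.sum_congr rfl (fun n _ => show LinearMap.trace ℂ _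
        (D.rep n * (f.smulRight x) * D.rep n⁻¹) = f x by
          rw [LinearMap.trace_mul_cycle, ← map_mul, inv_mul_cancel, map_one, one_mul,
            LinearMap.trace_smulRight])]
      simp [Nat.card_eq_fintype_card]
    rw [hc, map_smul, LinearMap.trace_id, smul_eq_mul, Module.finrank_fin_fun] at htr
    have h1 := LinearMap.congr_fun hc y
    simp only [S, LinearMap.sum_apply, LinearMap.comp_apply, LinearMap.smulRight_apply, map_smul,
      LinearMap.smul_apply, LinearMap.id_apply] at h1
    rw [h1]
    congr 1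
    rw [div_mul_eq_mul_div, eq_div_iff hd, htr]
  -- rank one maps are reached
  have hone : ∀ (f : (Fin D.d → ℂ) →ₗ[ℂ] ℂ) (y : Fin D.d → ℂ),
      ∃ b : MonoidAlgebra ℂ D.N, D.rep.asAlgebraHom b = f.smulRight y := by
    intro f y
    refine ⟨∑ n : D.N, single n ((D.d : ℂ) / Nat.card D.N * f (D.rep n⁻¹ y)),
      LinearMap.ext fun x => ?_⟩
    simp only [map_sum, Representation.asAlgebraHom_single, LinearMap.sum_apply,
      LinearMap.smul_apply, LinearMap.smulRight_apply]
    rw [Finset.sum_congr rfl (fun n _ => mul_smul ((D.d : ℂ) / Nat.card D.N) (f (D.rep n⁻¹ y))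
      (D.rep n x)), ← Finset.smul_sum, havg, smul_smul]
    congr 1
    field_simp
  have hT : T = ∑ i : Fin D.d,
      (LinearMap.proj i : (Fin D.d → ℂ) →ₗ[ℂ] ℂ).smulRight (T (Pi.single i 1)) := by
    refine LinearMap.ext fun v => ?_
    simp only [LinearMap.sum_apply, LinearMap.smulRight_apply, LinearMap.proj_apply]
    conv_lhs => rw [pi_eq_sum_univ' v, map_sum]
    simp [map_smul]
  choose b hb using fun i : Fin D.d =>
    hone (LinearMap.proj i) (T (Pi.single i 1))
  exact ⟨∑ i, b i, by rw [map_sum, hT]; exact Finset.sum_congr rfl fun i _ => hb i⟩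

end BaseRep

end CfsgLib.IsaacsCorr
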