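import Cfsg.Agent.Lib.IsaacsCorr.Restriction

/-!
# The correspondence over an invariant character

For `θ` invariant in `X` the characters of `X` over `θ` fixed by the operators correspond, by odd
multiplicity, to the fixed characters of `H` over `θ`.
-/

set_option autoImplicit false
set_option linter.style.haveILetI false
set_option linter.unusedSectionVars false

open scoped ComplexConjugate
open Cfsg CfsgLib.CharTheory CfsgLib.Frobenius CfsgLib.Clifford MonoidAlgebra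

namespace CfsgLib.IsaacsCorr

variable {X : Type*} [Group X] [Fintype X] {A : Type*} [Group A] [Finite A]

namespace BaseRep

variable {D : BaseRep X} {K H : Subgroup X} {σ : A →* MulAut X} {d : Data D K H σ}
  {D' : BaseRep X}

theorem Upper.idem_mul (U : Upper d D') : D.idem * D'.idem = D'.idem := by
  have h1 : D'.rep.asAlgebraHom (incTo D D'.N U.le D.idemN) = 1 :=
    asAlgebraHom_incTo_idemN U.le D'.rep (a := 1) fun n => by rw [one_mul]; exact U.res n
  have h2 := D'.mul_idemN_eq_of_apply_eq (a := incTo D D'.N U.le D.idemN) (b := 1)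
    (by rw [h1, map_one])
  have h3 := congrArg D'.inc h2
  rw [one_mul, map_mul] at h3
  rwa [show D'.inc (incTo D D'.N U.le D.idemN) = D.idem from incOf_incTo D D'.N U.le D.idemN] at h3

theorem Upper.rad_subset (U : Upper d D') : ∀ x ∈ D'.N, x ∈ K := fun x hx => ((U.mem x).1 hx).1

theorem Upper.isLine (U : Upper d D') {k : X} (hk : k ∈ K) :
    D'.IsLine k (D.u k * D'.idem) := by
  refine ⟨?_, by rw [mul_assoc, D'.idem_mul_self], fun m => ?_⟩
  · obtain ⟨b, hb⟩ := (D.isLine_u k).sec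
    refine ⟨incTo D D'.N U.le b * D'.idemN, ?_⟩
    rw [hb, mul_assoc, map_mul, show D'.inc (incTo D D'.N U.le b) = D.inc b from
      incOf_incTo D D'.N U.le b]
    rfl
  · obtain ⟨c, hc⟩ := D.exists_w_mul_single (m : X)
    have hmE : single (m : X) 1 * D'.idem = D.u m * D.inc c * D'.idem := by
      rw [← hc, ← D.single_mul_idem_eq, mul_assoc, U.idem_mul]
    have hsw : D.u k * (D.u m * D.inc c) = D.u m * D.inc c * D.u k := by
      rw [← mul_assoc, D.mul_eq_om_smul (d.sec.comm k hk m (U.rad_subset m m.2)) (D.isLine_u k)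
        (D.isLine_u m), ((U.mem m).1 m.2).2 k hk, one_smul, mul_assoc, mul_assoc,
        (D.isLine_u k).comm_inc c]
    calc single (m : X) 1 * (D.u k * D'.idem)
        = single (m : X) 1 * D'.idem * D.u k := by rw [D'.commute_idem, mul_assoc]
      _ = D.u m * D.inc c * D.u k * D'.idem := by
          rw [hmE, mul_assoc _ D'.idem, ← D'.commute_idem, ← mul_assoc]
      _ = D.u k * (single (m : X) 1 * D'.idem) := by rw [← hsw, hmE, mul_assoc (D.u k)]
      _ = D.u k * D'.idem * single (m : X) 1 := by rw [D'.single_mul_idem, mul_assoc]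

theorem Upper.line_ne_zero (U : Upper d D') (k : X) : D.u k * D'.idem ≠ 0 := by
  intro h
  refine D'.idem_ne_zero ?_
  rw [← U.idem_mul, ← D.w_mul_u k, mul_assoc, h, mul_zero]

theorem Upper.sec (U : Upper d D') : D'.Sec K where
  normal := d.sec.normal
  le := fun x hx => U.rad_subset x hx
  comm a ha b hb := U.le (d.sec.comm a ha b hb)

theorem Upper.om_eq (U : Upper d D') {a b : X} (ha : a ∈ K) (hb : b ∈ K) :
    D'.om a b = D.om a b := by
  refine D'.om_eq_of (U.sec.comm a ha b hb) (U.isLine ha) (U.isLine hb) (U.line_ne_zero a)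
    (U.line_ne_zero b) ?_
  have h : ∀ p q : X, D.u p * D'.idem * (D.u q * D'.idem) = D.u p * D.u q * D'.idem := fun p q => by
    rw [mul_assoc, ← mul_assoc D'.idem, ← D'.commute_idem (D.u q), mul_assoc (D.u q),
      D'.idem_mul_self, ← mul_assoc]
  rw [h, h, D.mul_eq_om_smul (d.sec.comm a ha b hb) (D.isLine_u a) (D.isLine_u b), smul_mul_assoc]

theorem Upper.nondeg (U : Upper d D') : D'.Nondeg K := fun m hm h =>
  (U.mem m).2 ⟨hm, fun k hk => (U.om_eq hk hm).symm.trans (h k hk)⟩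

theorem Upper.baseMap (U : Upper d D') (a : A) : BaseMap D' D' (σ a).toMonoidHom where
  inj := (σ a).injective
  mem n hn := (U.mem _).2 (d.map_rad a ((U.mem n).1 hn))
  surj m hm := ⟨σ a⁻¹ m, (U.mem _).2 (d.map_rad a⁻¹ ((U.mem m).1 hm)), by
    show σ a (σ a⁻¹ m) = m
    rw [← MulAut.mul_apply, ← map_mul, mul_inv_cancel, map_one]
    rfl⟩
  char n m h := U.fixed a n m h.symm

theorem Upper.gen (_U : Upper d D') :
    ∀ x ∈ D'.N ⊔ H, ∃ r ∈ D'.N, ∃ h ∈ H, x = r * h := fun x hx => by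
  obtain ⟨r, hr, h, hh, e⟩ := Subgroup.mem_sup_of_normal_left.1 hx
  exact ⟨r, hr, h, hh, e.symm⟩

theorem Upper.exists_setting (U : Upper d D') [Fintype K] :
    ∃ j, D'.Setting K (D'.N ⊔ H) j := by
  obtain ⟨j, hj, hjj, hjH⟩ := exists_magic U.sec U.nondeg d.odd σ U.baseMap d.mapK d.cop
    (fun k hk hf => (U.mem k).2 (d.fix_rad hk fun a => (U.mem _).1 (hf a))) (D'.N ⊔ H) (fun x hx => by
      obtain ⟨r, hr, h, hh, rfl⟩ := U.gen x hx
      obtain ⟨n, hn, c, rfl, hc⟩ := d.decomp h hh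
      exact ⟨r * n, mul_mem hr (U.le hn), c, (mul_assoc _ _ _).symm, hc⟩)
  refine ⟨j, d.odd, U.sec, U.nondeg, le_sup_left, fun x => ?_, hj, hjj, hjH⟩
  obtain ⟨k, hk, h, hh, rfl⟩ := d.sup x
  exact ⟨k, hk, h, (le_sup_right : H ≤ D'.N ⊔ H) hh, rfl⟩

variable [Fintype H]

/-- The odd multiplicities are transported by an automorphism. -/
theorem oddMult_comp {χ : X → ℂ} {ψ : H → ℂ} (f : X ≃* X) (hf : ∀ x ∈ H, f x ∈ H)
    (h : OddMult χ ψ) :
    OddMult (fun x => χ (f x)) (fun y : H => ψ (autRestrict H f hf y)) := by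
  obtain ⟨m, hm, ho⟩ := h
  refine ⟨m, ?_, ho⟩
  rw [← hm, ← classInner_comp_mulEquiv (autRestrict H f hf) (fun y : H => χ y) ψ]
  rfl

theorem Upper.over_down (U : Upper d D') {χ : X → ℂ} (hχ : IsIrrCharacter X χ)
    (h : Over D' χ) : Over D χ := by
  obtain ⟨a, ha⟩ := h.res_eq hχ
  have ha0 : a ≠ 0 := fun h0 => apply_one_ne_zero_of_isIrr hχ (by
    have h1 := ha 1
    rw [h0, zero_mul] at h1
    exact h1)
  rw [Over, show (fun n : D.N => χ n) = a • D.rep.character from funext fun n => by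
    rw [Pi.smul_apply, smul_eq_mul, ← U.res n, ← ha]
    rfl, classInner_smul_left, classInner_self_of_isIrr (isIrrCharacter_character D.rep), mul_one]
  exact ha0

/-- The restriction of a character of `M H` over the extension. -/
theorem Upper.classInner_res_left (U : Upper d D') [Fintype ↥(D'.N ⊔ H)] {χ : X → ℂ}
    (hχ : IsIrrCharacter X χ) (h : Over D' χ) {ξ : ↥(D'.N ⊔ H) → ℂ}
    (hξ : IsCharacter ↥(D'.N ⊔ H) ξ) {a : ℂ}
    (ha : ∀ r : D'.N, ξ (Subgroup.inclusion le_sup_left r) = a * D'.rep.character r) :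
    classInner (fun y : H => χ y) (fun y : H => ξ (Subgroup.inclusion le_sup_right y))
      = classInner (fun y : ↥(D'.N ⊔ H) => χ y) ξ := by
  obtain ⟨b, hb⟩ := h.res_eq hχ
  exact U.classInner_res le_sup_left le_sup_right U.gen
    (CfsgLib.Coherence.isCharacter_comp (IsIrrCharacter.isCharacter hχ) (D'.N ⊔ H).subtype) hξ
    (χ := fun y : ↥(D'.N ⊔ H) => χ y) (a := b) hb ha

/-- The fixed characters of `X` over the base: the fixed characters of `H`. -/
theorem Data.correspondence (d : Data D K H σ) :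
    (∀ χ : IrrCharacter X, (∀ a x, (χ : X → ℂ) (σ a x) = (χ : X → ℂ) x) → Over D (χ : X → ℂ) →
      ∃ ψ : IrrCharacter H, ∀ ξ : IrrCharacter H, OddMult (χ : X → ℂ) (ξ : H → ℂ) ↔ ξ = ψ) ∧
    (∀ χ χ' : IrrCharacter X, (∀ a x, (χ : X → ℂ) (σ a x) = (χ : X → ℂ) x) →
      (∀ a x, (χ' : X → ℂ) (σ a x) = (χ' : X → ℂ) x) → Over D (χ : X → ℂ) → Over D (χ' : X → ℂ) →
      ∀ ξ : IrrCharacter H, OddMult (χ : X → ℂ) (ξ : H → ℂ) → OddMult (χ' : X → ℂ) (ξ : H → ℂ) →
        χ = χ') ∧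
    (∀ ψ : IrrCharacter H,
      (∀ a, ∀ y y' : H, (y' : X) = σ a y → (ψ : H → ℂ) y' = (ψ : H → ℂ) y) →
      (∃ a : ℂ, ∀ n : D.N, (ψ : H → ℂ) ⟨(n : X), d.le n.2⟩ = a * D.rep.character n) →
      ∃ χ : IrrCharacter X, (∀ a x, (χ : X → ℂ) (σ a x) = (χ : X → ℂ) x) ∧ Over D (χ : X → ℂ) ∧
        OddMult (χ : X → ℂ) (ψ : H → ℂ)) := by
  classical
  obtain ⟨D', U, hup⟩ := d.exists_upper
  letI : Fintype K := Fintype.ofFinite _
  letI : Fintype ↥(D'.N ⊔ H) := Fintype.ofFinite _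
  obtain ⟨j, S⟩ := U.exists_setting
  -- translation of multiplicities
  have hres : ∀ ξ : IrrCharacter ↥(D'.N ⊔ H), ∀ a : ℂ,
      (∀ r : D'.N, (ξ : ↥(D'.N ⊔ H) → ℂ) (Subgroup.inclusion le_sup_left r)
        = a * D'.rep.character r) →
      IsIrrCharacter H (fun y : H => (ξ : ↥(D'.N ⊔ H) → ℂ) (Subgroup.inclusion le_sup_right y)) :=
    fun ξ a ha => (isIrrCharacter_iff_norm_one (CfsgLib.Coherence.isCharacter_comp
      (IsIrrCharacter.isCharacter ξ.2) (Subgroup.inclusion le_sup_right))).2 (by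
        rw [U.classInner_res le_sup_left le_sup_right U.gen (IsIrrCharacter.isCharacter ξ.2)
          (IsIrrCharacter.isCharacter ξ.2) ha ha, classInner_self_of_isIrr ξ.2])
  have hlift : ∀ χ : X → ℂ, IsIrrCharacter X χ → Over D' χ → ∀ η : IrrCharacter H,
      OddMult χ (η : H → ℂ) → ∃ ξ : IrrCharacter ↥(D'.N ⊔ H),
        OddMult χ (ξ : ↥(D'.N ⊔ H) → ℂ) ∧
        (fun y : H => (ξ : ↥(D'.N ⊔ H) → ℂ) (Subgroup.inclusion le_sup_right y)) = (η : H → ℂ) := by
    intro χ hχ hov η ⟨m, hm, ho⟩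
    have hm0 : (m : ℂ) ≠ 0 := Nat.cast_ne_zero.2 fun h0 => by simp [h0] at ho
    obtain ⟨ξ, ⟨a, ha⟩, hξη⟩ := U.exists_res le_sup_left le_sup_right U.gen η
      (mult_of_constituent D d.le hχ (U.over_down hχ hov) η.2 (by rw [hm]; exact hm0))
    refine ⟨ξ, ⟨m, ?_, ho⟩, hξη⟩
    rw [← U.classInner_res_left hχ hov (IsIrrCharacter.isCharacter ξ.2) ha, hξη, hm]
  refine ⟨fun χ hχi hover => ?_, fun χ χ' hχi hχi' hover hover' η ho ho' => ?_,
    fun ψ hψi hψover => ?_⟩
  · have hov := hup _ χ.2 hχi hover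
    obtain ⟨ξ₀, hξ₀⟩ := S.existsUnique_oddMult χ.2 hov
    obtain ⟨m, hm, ho⟩ := (hξ₀ ξ₀).2 rfl
    obtain ⟨a, ha⟩ := mult_of_constituent D' le_sup_left χ.2 hov ξ₀.2
      (by rw [hm]; exact Nat.cast_ne_zero.2 fun h0 => by simp [h0] at ho)
    refine ⟨⟨_, hres ξ₀ a ha⟩, fun η => ⟨fun hη => ?_, ?_⟩⟩
    · obtain ⟨ξ, hξ, hξη⟩ := hlift _ χ.2 hov η hη
      obtain rfl := (hξ₀ ξ).1 hξ
      exact Subtype.ext hξη.symm
    · rintro rfl
      refine ⟨m, ?_, ho⟩
      rw [← hm]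
      exact U.classInner_res_left χ.2 hov (IsIrrCharacter.isCharacter ξ₀.2) ha
  · have hov := hup _ χ.2 hχi hover
    have hov' := hup _ χ'.2 hχi' hover'
    obtain ⟨ξ, hξ, hξη⟩ := hlift _ χ.2 hov η ho
    obtain ⟨ξ', hξ', hξη'⟩ := hlift _ χ'.2 hov' η ho'
    have hξξ' : ξ = ξ' := by
      obtain ⟨m, hm, hmo⟩ := hξ
      obtain ⟨m', hm', hmo'⟩ := hξ'
      obtain ⟨a, ha⟩ := mult_of_constituent D' le_sup_left χ.2 hov ξ.2
        (by rw [hm]; exact Nat.cast_ne_zero.2 fun h0 => by simp [h0] at hmo)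
      obtain ⟨a', ha'⟩ := mult_of_constituent D' le_sup_left χ'.2 hov' ξ'.2
        (by rw [hm']; exact Nat.cast_ne_zero.2 fun h0 => by simp [h0] at hmo')
      by_contra hne
      have h1 := U.classInner_res le_sup_left le_sup_right U.gen
        (IsIrrCharacter.isCharacter ξ.2) (IsIrrCharacter.isCharacter ξ'.2) ha ha'
      rw [classInner_eq_zero_of_ne ξ.2 ξ'.2 fun e => hne (Subtype.ext e), hξη, hξη',
        classInner_self_of_isIrr η.2] at h1
      exact one_ne_zero h1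
    exact Subtype.ext (S.eq_of_oddMult χ.2 χ'.2 hov hov' hξ (hξξ' ▸ hξ'))
  · obtain ⟨ξ, ⟨a, ha⟩, hξψ⟩ := U.exists_res le_sup_left le_sup_right U.gen ψ hψover
    obtain ⟨χ, hov, hξ⟩ := S.exists_oddMult ξ ⟨a, ha⟩
    refine ⟨χ, fun b x => ?_, U.over_down χ.2 hov, ?_⟩
    · have hT : ∀ y ∈ D'.N ⊔ H, σ b y ∈ D'.N ⊔ H := fun y hy => by
        obtain ⟨r, hr, h, hh, rfl⟩ := U.gen y hy
        rw [map_mul]
        exact Subgroup.mul_mem_sup ((U.baseMap b).mem r hr) (d.map_H b hh)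
      have hχ' : IsIrrCharacter X (fun y => (χ : X → ℂ) (σ b y)) :=
        isIrrCharacter_comp_mulEquiv χ.2 (σ b)
      let ξ' : ↥(D'.N ⊔ H) → ℂ := fun y =>
        (ξ : ↥(D'.N ⊔ H) → ℂ) (autRestrict (D'.N ⊔ H) (σ b) hT y)
      have hξ' : IsIrrCharacter ↥(D'.N ⊔ H) ξ' := isIrrCharacter_comp_mulEquiv ξ.2 _
      have hmem : ∀ r : D'.N, σ b (r : X) ∈ D'.N := fun r => (U.baseMap b).mem r r.2
      have hov' : Over D' (fun y => (χ : X → ℂ) (σ b y)) := by
        refine fun h0 => hov ?_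
        rw [← h0]
        obtain ⟨c, hc⟩ := Over.res_eq χ.2 hov
        congr 1
        funext r
        show (χ : X → ℂ) (r : X) = (χ : X → ℂ) (σ b r)
        rw [hc, show (χ : X → ℂ) (σ b r) = c * D'.rep.character ⟨σ b r, hmem r⟩ from hc ⟨_, hmem r⟩,
          U.fixed b r ⟨_, hmem r⟩ rfl]
      have ha' : ∀ r : D'.N, ξ' (Subgroup.inclusion le_sup_left r) = a * D'.rep.character r :=
        fun r => by
        rw [← U.fixed b r ⟨σ b r, hmem r⟩ rfl, ← ha]
        exact congrArg _ (Subtype.ext rfl)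
      have hξeq : ξ = ⟨ξ', hξ'⟩ := by
        by_contra hne
        have h1 := U.classInner_res le_sup_left le_sup_right U.gen
          (IsIrrCharacter.isCharacter ξ.2) (IsIrrCharacter.isCharacter hξ') ha ha'
        have h2 : (fun y : H => ξ' (Subgroup.inclusion le_sup_right y)) = (ψ : H → ℂ) :=
          funext fun y => by
          rw [← hψi b y ⟨σ b y, d.map_H b y.2⟩ rfl]
          refine Eq.trans ?_ (congrFun hξψ _)
          exact congrArg _ (Subtype.ext rfl)
        rw [classInner_eq_zero_of_ne ξ.2 hξ' fun e => hne (Subtype.ext e), hξψ, h2,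
          classInner_self_of_isIrr ψ.2] at h1
        exact one_ne_zero h1
      have ho' : OddMult (fun y => (χ : X → ℂ) (σ b y)) (ξ : ↥(D'.N ⊔ H) → ℂ) := by
        rw [congrArg Subtype.val hξeq]
        exact oddMult_comp (σ b) hT hξ
      exact congrFun (S.eq_of_oddMult hχ' χ.2 hov' hov ho' hξ) x
    · obtain ⟨m, hm, hmo⟩ := hξ
      refine ⟨m, ?_, hmo⟩
      rw [← hξψ, U.classInner_res_left χ.2 hov (IsIrrCharacter.isCharacter ξ.2) ha, hm]

end BaseRep

end CfsgLib.IsaacsCorr
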