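import Cfsg.Agent.Lib.IsaacsCorr.Idem

/-!
# Lines commuting with the normal subgroup

For each `k` the elements of `k * C[N] * idem` commuting with `N` form a line spanned by a unit of
the algebra `C[X] * idem`. Two of them at commuting cosets commute up to a scalar `om`.
-/

set_option autoImplicit false
set_option linter.style.haveILetI false
set_option linter.unusedSectionVars false

open Cfsg CfsgLib.CharTheory MonoidAlgebra

namespace CfsgLib.IsaacsCorr

variable {X : Type*} [Group X] [Fintype X]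

namespace BaseRep

variable (D : BaseRep X)

/-- Conjugation on the group algebra of `N`. -/
noncomputable def conjN (k : X) : MonoidAlgebra ℂ D.N →ₐ[ℂ] MonoidAlgebra ℂ D.N :=
  mapDomainAlgHom ℂ ℂ (MulAut.conjNormal k : MulAut D.N).toMonoidHom

theorem conjN_single (k : X) (n : D.N) (c : ℂ) :
    D.conjN k (single n c) = single ((MulAut.conjNormal k : MulAut D.N) n) c := by
  simp [conjN]

theorem single_mul_inc (k : X) (b : MonoidAlgebra ℂ D.N) :
    single k 1 * D.inc b = D.inc (D.conjN k b) * single k 1 := by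
  induction b using MonoidAlgebra.induction_on with
  | of n =>
    rw [MonoidAlgebra.of_apply, conjN_single, inc_single, inc_single, single_mul_single,
      single_mul_single, MulAut.conjNormal_apply, mul_one]
    congr 1
    group
  | add a b ha hb => simp only [map_add, mul_add, add_mul, ha, hb]
  | smul r a ha => simp only [map_smul, mul_smul_comm, smul_mul_assoc, ha]

theorem inc_mul_single (k : X) (b : MonoidAlgebra ℂ D.N) :
    D.inc b * single k 1 = single k 1 * D.inc (D.conjN k⁻¹ b) := by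
  have h := D.single_mul_inc k⁻¹ b
  calc D.inc b * single k 1
      = single k 1 * (single k⁻¹ 1 * D.inc b) * single k 1 := by
        rw [← mul_assoc, single_mul_single, mul_inv_cancel, one_mul, ← one_def, one_mul]
    _ = single k 1 * D.inc (D.conjN k⁻¹ b) := by
        rw [h, mul_assoc, mul_assoc, single_mul_single, inv_mul_cancel, one_mul, ← one_def, mul_one]

/-- `x` lies in `k * C[N]`. -/
def InSec (k : X) (x : MonoidAlgebra ℂ X) : Prop :=
  ∃ b : MonoidAlgebra ℂ D.N, x = single k 1 * D.inc b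

/-- The line at `k`. -/
structure IsLine (k : X) (x : MonoidAlgebra ℂ X) : Prop where
  sec : D.InSec k x
  mul_idem : x * D.idem = x
  comm : ∀ n : D.N, single (n : X) 1 * x = x * single (n : X) 1

variable {D}

theorem IsLine.idem_mul {k : X} {x : MonoidAlgebra ℂ X} (h : D.IsLine k x) : D.idem * x = x := by
  rw [← D.commute_idem, h.mul_idem]

theorem IsLine.comm_inc {k : X} {x : MonoidAlgebra ℂ X} (h : D.IsLine k x)
    (b : MonoidAlgebra ℂ D.N) : D.inc b * x = x * D.inc b := by
  induction b using MonoidAlgebra.induction_on with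
  | of n => rw [MonoidAlgebra.of_apply, inc_single]; exact h.comm n
  | add a b ha hb => simp only [map_add, mul_add, add_mul, ha, hb]
  | smul r a ha => simp only [map_smul, mul_smul_comm, smul_mul_assoc, ha]

theorem IsLine.smul {k : X} {x : MonoidAlgebra ℂ X} (h : D.IsLine k x) (c : ℂ) :
    D.IsLine k (c • x) := by
  obtain ⟨b, hb⟩ := h.sec
  exact ⟨⟨c • b, by rw [hb, map_smul, mul_smul_comm]⟩, by rw [smul_mul_assoc, h.mul_idem],
    fun n => by rw [mul_smul_comm, smul_mul_assoc, h.comm n]⟩

theorem IsLine.mul {k l : X} {x y : MonoidAlgebra ℂ X} (hx : D.IsLine k x) (hy : D.IsLine l y) :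
    D.IsLine (k * l) (x * y) := by
  obtain ⟨a, ha⟩ := hx.sec
  obtain ⟨b, hb⟩ := hy.sec
  refine ⟨⟨D.conjN l⁻¹ a * b, ?_⟩, by rw [mul_assoc, hy.mul_idem], fun n => ?_⟩
  · rw [ha, hb, map_mul, mul_assoc, ← mul_assoc (D.inc a), D.inc_mul_single l a, mul_assoc,
      ← mul_assoc, single_mul_single, one_mul]
  · rw [← mul_assoc, hx.comm n, mul_assoc, hy.comm n, mul_assoc]

theorem inSec_idem_of_mem {n : X} (hn : n ∈ D.N) : D.InSec n D.idem := by
  refine ⟨single (⟨n, hn⟩ : D.N)⁻¹ 1 * D.idemN, ?_⟩
  rw [map_mul, inc_single, ← mul_assoc, single_mul_single, one_mul, Subgroup.coe_inv,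
    mul_inv_cancel, ← one_def, one_mul, idem]

theorem isLine_idem {n : X} (hn : n ∈ D.N) : D.IsLine n D.idem :=
  ⟨inSec_idem_of_mem hn, D.idem_mul_self, fun m => D.single_mul_idem m⟩

theorem IsLine.of_coset {k : X} {x : MonoidAlgebra ℂ X} (h : D.IsLine k x) {n : X}
    (hn : n ∈ D.N) : D.IsLine (k * n) x := by
  have := h.mul (isLine_idem hn)
  rwa [h.mul_idem] at this

theorem IsLine.congr {k k' : X} {x : MonoidAlgebra ℂ X} (h : D.IsLine k x)
    (hk : k⁻¹ * k' ∈ D.N) : D.IsLine k' x := by
  simpa using h.of_coset hk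

theorem IsLine.eq_smul_idem {x : MonoidAlgebra ℂ X} (h : D.IsLine 1 x) :
    ∃ c : ℂ, x = c • D.idem := by
  obtain ⟨b, hb⟩ := h.sec
  rw [← one_def, one_mul] at hb
  have hx : x = D.inc (b * D.idemN) := by
    rw [map_mul, ← hb]; exact h.mul_idem.symm
  have hcomm : ∀ n : D.N, (D.rep.asAlgebraHom (b * D.idemN)) ∘ₗ D.rep n
      = D.rep n ∘ₗ D.rep.asAlgebraHom (b * D.idemN) := by
    intro n
    have h1 : single n 1 * (b * D.idemN) = b * D.idemN * single n 1 := by
      refine D.inc_injective ?_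
      rw [map_mul, map_mul D.inc (b * D.idemN), ← hx, inc_single]
      exact h.comm n
    have h2 := congrArg D.rep.asAlgebraHom h1
    rw [map_mul, map_mul D.rep.asAlgebraHom (b * D.idemN),
      Representation.asAlgebraHom_single_one] at h2
    exact h2.symm
  obtain ⟨c, hc⟩ := exists_smul_of_commute D.rep _ hcomm
  refine ⟨c, ?_⟩
  have h3 : b * D.idemN * D.idemN = (c • 1) * D.idemN :=
    D.mul_idemN_eq_of_apply_eq (by rw [hc, map_smul, map_one]; rfl)
  rw [mul_assoc, D.idemN_mul_self, smul_mul_assoc, one_mul] at h3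
  rw [hx, h3, map_smul, idem]

variable (D)

/-- At each element there is a unit in the line. -/
theorem exists_unit (k : X) : ∃ u w : MonoidAlgebra ℂ X,
    D.IsLine k u ∧ D.IsLine k⁻¹ w ∧ u * w = D.idem ∧ w * u = D.idem := by
  set α : MulAut D.N := MulAut.conjNormal k⁻¹ with hα
  let ρ' : Representation ℂ D.N (Fin D.d → ℂ) := D.rep.comp α.toMonoidHom
  haveI : ρ'.IsIrreducible := isIrreducible_comp D.rep α.surjective
  have hchar : D.rep.character = ρ'.character := by
    funext n
    refine (D.inv k⁻¹ n (α n) ?_).symm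
    rw [hα, MulAut.conjNormal_apply]
  obtain ⟨S⟩ := (nonempty_equiv_iff_character_eq D.rep ρ').2 hchar
  obtain ⟨b, hb⟩ := D.asAlgebraHom_surjective S.toLinearEquiv.toLinearMap
  obtain ⟨b', hb'⟩ := D.asAlgebraHom_surjective S.toLinearEquiv.symm.toLinearMap
  have hbb' : b * D.idemN * (b' * D.idemN) = D.idemN := by
    have := D.mul_idemN_eq_of_apply_eq (a := b * D.idemN * b') (b := 1) (by
      rw [map_mul, map_mul, D.asAlgebraHom_idemN, hb, hb', mul_one, map_one]
      exact LinearMap.ext fun v => S.toLinearEquiv.apply_symm_apply v)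
    rwa [one_mul, mul_assoc] at this
  have hb'b : b' * D.idemN * (b * D.idemN) = D.idemN := by
    have := D.mul_idemN_eq_of_apply_eq (a := b' * D.idemN * b) (b := 1) (by
      rw [map_mul, map_mul, D.asAlgebraHom_idemN, hb, hb', mul_one, map_one]
      exact LinearMap.ext fun v => S.toLinearEquiv.symm_apply_apply v)
    rwa [one_mul, mul_assoc] at this
  set u := single k 1 * D.inc (b * D.idemN) with hu
  set w := D.inc (b' * D.idemN) * single k⁻¹ 1 with hw
  have hue : u * D.idem = u := by
    rw [hu, idem, mul_assoc, ← map_mul, mul_assoc b, D.idemN_mul_self]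
  have hwe : w * D.idem = w := by
    rw [hw, mul_assoc, D.single_mul_idem, ← mul_assoc, idem, ← map_mul, mul_assoc b',
      D.idemN_mul_self]
  have huw : u * w = D.idem := by
    rw [hu, hw, mul_assoc, ← mul_assoc (D.inc _), ← map_mul, hbb', ← idem, ← mul_assoc,
      D.single_mul_idem, mul_assoc, single_mul_single, mul_inv_cancel, one_mul, ← one_def, mul_one]
  have hwu : w * u = D.idem := by
    rw [hu, hw, mul_assoc, ← mul_assoc (single k⁻¹ 1), single_mul_single, inv_mul_cancel, one_mul,
      ← one_def, one_mul, ← map_mul, hb'b, idem]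
  have hucomm : ∀ n : D.N, single (n : X) 1 * u = u * single (n : X) 1 := by
    intro n
    have h1 : single (α n) 1 * (b * D.idemN) = b * D.idemN * single n 1 := by
      have h2 := D.mul_idemN_eq_of_apply_eq (a := single (α n) 1 * b) (b := b * single n 1) (by
        rw [map_mul, map_mul, hb, Representation.asAlgebraHom_single_one,
          Representation.asAlgebraHom_single_one]
        exact (LinearMap.ext fun v => LinearMap.congr_fun (S.isIntertwining' n) v).symm)
      have h3 : single n 1 * D.idemN = D.idemN * single n 1 := by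
        refine D.inc_injective ?_
        rw [map_mul, map_mul D.inc D.idemN, inc_single, ← idem]
        exact D.single_mul_idem n
      rw [← mul_assoc, h2, mul_assoc, h3, mul_assoc]
    rw [hu, ← mul_assoc, single_mul_single, one_mul, mul_assoc, ← inc_single (c := 1), ← map_mul,
      ← h1, map_mul D.inc (single (α n) 1), inc_single, ← mul_assoc, single_mul_single, one_mul, hα,
      MulAut.conjNormal_apply]
    congr 1
    group
  have hwcomm : ∀ n : D.N, single (n : X) 1 * w = w * single (n : X) 1 := by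
    intro n
    calc single (n : X) 1 * w = single (n : X) 1 * (D.idem * w) := by
          rw [← D.commute_idem w, hwe]
      _ = D.idem * single (n : X) 1 * w := by rw [← mul_assoc, D.single_mul_idem]
      _ = w * u * single (n : X) 1 * w := by rw [hwu]
      _ = w * (single (n : X) 1 * u) * w := by rw [mul_assoc w u, hucomm n]
      _ = w * single (n : X) 1 * D.idem := by
          rw [← huw]; simp only [mul_assoc]
      _ = w * single (n : X) 1 := by
          rw [mul_assoc, D.single_mul_idem, ← mul_assoc, hwe]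
  refine ⟨u, w, ⟨⟨_, rfl⟩, hue, hucomm⟩, ⟨⟨D.conjN k (b' * D.idemN), ?_⟩, hwe, hwcomm⟩, huw, hwu⟩
  rw [hw, D.inc_mul_single, inv_inv]

/-- The chosen unit at `k`. -/
noncomputable def u (k : X) : MonoidAlgebra ℂ X := (D.exists_unit k).choose

/-- Its inverse. -/
noncomputable def w (k : X) : MonoidAlgebra ℂ X := (D.exists_unit k).choose_spec.choose

theorem isLine_u (k : X) : D.IsLine k (D.u k) := (D.exists_unit k).choose_spec.choose_spec.1

theorem isLine_w (k : X) : D.IsLine k⁻¹ (D.w k) := (D.exists_unit k).choose_spec.choose_spec.2.1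

theorem u_mul_w (k : X) : D.u k * D.w k = D.idem := (D.exists_unit k).choose_spec.choose_spec.2.2.1

theorem w_mul_u (k : X) : D.w k * D.u k = D.idem := (D.exists_unit k).choose_spec.choose_spec.2.2.2

theorem exists_eq_smul_u {k : X} {x : MonoidAlgebra ℂ X} (h : D.IsLine k x) :
    ∃ c : ℂ, x = c • D.u k := by
  obtain ⟨c, hc⟩ := IsLine.eq_smul_idem (((D.isLine_w k).mul h).congr (k' := 1) (by simp))
  refine ⟨c, ?_⟩
  rw [← h.idem_mul, ← D.u_mul_w k, mul_assoc, hc, mul_smul_comm, (D.isLine_u k).mul_idem]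

theorem u_ne_zero (k : X) : D.u k ≠ 0 := fun h =>
  D.idem_ne_zero (by rw [← D.u_mul_w k, h, zero_mul])

theorem w_ne_zero (k : X) : D.w k ≠ 0 := fun h =>
  D.idem_ne_zero (by rw [← D.w_mul_u k, h, zero_mul])

theorem mul_ne_zero_line {k l : X} {x y : MonoidAlgebra ℂ X} (hx : D.IsLine k x)
    (hy : D.IsLine l y) (hx0 : x ≠ 0) (hy0 : y ≠ 0) : x * y ≠ 0 := by
  obtain ⟨a, rfl⟩ := D.exists_eq_smul_u hx
  obtain ⟨b, rfl⟩ := D.exists_eq_smul_u hy
  have ha : a ≠ 0 := fun h => hx0 (by simp [h])
  have hb : b ≠ 0 := fun h => hy0 (by simp [h])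
  intro h
  rw [smul_mul_smul_comm] at h
  have h1 : D.u k * D.u l = 0 := (smul_eq_zero.1 h).resolve_left (mul_ne_zero ha hb)
  refine D.idem_ne_zero ?_
  have h2 := congrArg (fun z => D.w k * z * D.w l) h1
  simp only [mul_zero, zero_mul, ← mul_assoc, D.w_mul_u] at h2
  rwa [mul_assoc, D.u_mul_w, D.idem_mul_self] at h2

/-- An element of the algebra of `N` completes `w k`. -/
theorem exists_w_mul_single (k : X) : ∃ b, D.w k * single k 1 = D.inc b := by
  obtain ⟨b, hb⟩ := (D.isLine_w k).sec
  refine ⟨D.conjN k⁻¹ b, ?_⟩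
  rw [hb, mul_assoc, D.inc_mul_single, ← mul_assoc, single_mul_single, inv_mul_cancel, one_mul,
    ← one_def, one_mul]

theorem single_mul_idem_eq (k : X) :
    single k 1 * D.idem = D.u k * (D.w k * single k 1) := by
  rw [← mul_assoc, D.u_mul_w, D.single_mul_idem]

/-- The commutation scalar. -/
noncomputable def om (a b : X) : ℂ :=
  open Classical in
  if h : ∃ c : ℂ, D.u a * D.u b = c • (D.u b * D.u a) then h.choose else 0

theorem mul_eq_om_smul {a b : X} (hab : a⁻¹ * b⁻¹ * a * b ∈ D.N) {x y : MonoidAlgebra ℂ X}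
    (hx : D.IsLine a x) (hy : D.IsLine b y) : x * y = D.om a b • (y * x) := by
  classical
  have hex : ∃ c : ℂ, D.u a * D.u b = c • (D.u b * D.u a) := by
    have h1 : D.IsLine (a * b) (D.u b * D.u a) :=
      ((D.isLine_u b).mul (D.isLine_u a)).congr (by rw [mul_inv_rev]; simpa [mul_assoc] using hab)
    obtain ⟨c1, hc1⟩ := D.exists_eq_smul_u h1
    obtain ⟨c2, hc2⟩ := D.exists_eq_smul_u ((D.isLine_u a).mul (D.isLine_u b))
    have hc10 : c1 ≠ 0 := fun h => D.mul_ne_zero_line (D.isLine_u b) (D.isLine_u a)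
      (D.u_ne_zero b) (D.u_ne_zero a) (by rw [hc1, h, zero_smul])
    exact ⟨c2 / c1, by rw [hc1, hc2, smul_smul, div_mul_cancel₀ _ hc10]⟩
  obtain ⟨s, rfl⟩ := D.exists_eq_smul_u hx
  obtain ⟨t, rfl⟩ := D.exists_eq_smul_u hy
  rw [smul_mul_smul_comm, smul_mul_smul_comm, mul_comm t s]
  conv_lhs => rw [hex.choose_spec, show hex.choose = D.om a b by rw [om, dif_pos hex]]
  rw [smul_comm]

theorem om_eq_of {a b : X} (hab : a⁻¹ * b⁻¹ * a * b ∈ D.N) {x y : MonoidAlgebra ℂ X}
    (hx : D.IsLine a x) (hy : D.IsLine b y) (hx0 : x ≠ 0) (hy0 : y ≠ 0) {c : ℂ}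
    (h : x * y = c • (y * x)) : D.om a b = c := by
  rw [D.mul_eq_om_smul hab hx hy] at h
  exact smul_left_injective ℂ (D.mul_ne_zero_line hy hx hy0 hx0) h

theorem om_ne_zero {a b : X} (hab : a⁻¹ * b⁻¹ * a * b ∈ D.N) : D.om a b ≠ 0 := by
  intro h
  refine D.mul_ne_zero_line (D.isLine_u a) (D.isLine_u b) (D.u_ne_zero a) (D.u_ne_zero b) ?_
  rw [D.mul_eq_om_smul hab (D.isLine_u a) (D.isLine_u b), h, zero_smul]

theorem om_of_mem {a b : X} (hb : b ∈ D.N) : D.om a b = 1 := by
  refine D.om_eq_of ?_ (D.isLine_u a) (isLine_idem hb) (D.u_ne_zero a) D.idem_ne_zero ?_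
  · exact mul_mem (by simpa using D.normal.conj_mem _ (inv_mem hb) a⁻¹) hb
  · rw [one_smul, (D.isLine_u a).mul_idem, (D.isLine_u a).idem_mul]

theorem om_self (a : X) : D.om a a = 1 :=
  D.om_eq_of (by simp) (D.isLine_u a) (D.isLine_u a) (D.u_ne_zero a) (D.u_ne_zero a)
    (one_smul _ _).symm

end BaseRep

end CfsgLib.IsaacsCorr
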