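import Cfsg.Agent.Lib.IsaacsCorr.Maps

/-!
# The inverting involution of the twisted algebra of a nondegenerate abelian section
-/

set_option autoImplicit false
set_option linter.style.haveILetI false
set_option linter.unusedSectionVars false

open Cfsg CfsgLib.CharTheory MonoidAlgebra

namespace CfsgLib.IsaacsCorr

variable {X : Type*} [Group X] [Fintype X]

namespace BaseRep

variable {D : BaseRep X} {K : Subgroup X} [Fintype K]

/-- The span of the units at the elements of `K`. -/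
noncomputable def bSpan (D : BaseRep X) (K : Subgroup X) : Submodule ℂ (MonoidAlgebra ℂ X) :=
  Submodule.span ℂ (Set.range fun k : K => D.u k)

/-- The average over conjugation by the units. -/
noncomputable def pAvg (D : BaseRep X) (K : Subgroup X) [Fintype K] :
    MonoidAlgebra ℂ X →ₗ[ℂ] MonoidAlgebra ℂ X :=
  (Nat.card K : ℂ)⁻¹ • ∑ k : K, (LinearMap.mulRight ℂ (D.w k)).comp (LinearMap.mulLeft ℂ (D.u k))

theorem pAvg_apply (y : MonoidAlgebra ℂ X) :
    D.pAvg K y = (Nat.card K : ℂ)⁻¹ • ∑ k : K, D.u k * y * D.w k := by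
  simp [pAvg]

theorem u_mem_bSpan {k : X} (hk : k ∈ K) : D.u k ∈ bSpan D K :=
  Submodule.subset_span ⟨⟨k, hk⟩, rfl⟩

theorem line_mem_bSpan {k : X} (hk : k ∈ K) {x : MonoidAlgebra ℂ X} (hx : D.IsLine k x) :
    x ∈ bSpan D K := by
  obtain ⟨c, rfl⟩ := D.exists_eq_smul_u hx
  exact Submodule.smul_mem _ _ (u_mem_bSpan hk)

theorem mul_idem_of_mem {y : MonoidAlgebra ℂ X} (hy : y ∈ bSpan D K) : y * D.idem = y := by
  induction hy using Submodule.span_induction with
  | mem y hy => obtain ⟨k, rfl⟩ := hy; exact (D.isLine_u k).mul_idem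
  | zero => rw [zero_mul]
  | add a b _ _ ha hb => rw [add_mul, ha, hb]
  | smul c a _ ha => rw [smul_mul_assoc, ha]

theorem idem_mul_of_mem {y : MonoidAlgebra ℂ X} (hy : y ∈ bSpan D K) : D.idem * y = y := by
  rw [← D.commute_idem, mul_idem_of_mem hy]

theorem single_comm_of_mem {y : MonoidAlgebra ℂ X} (hy : y ∈ bSpan D K) (n : D.N) :
    single (n : X) 1 * y = y * single (n : X) 1 := by
  induction hy using Submodule.span_induction with
  | mem y hy => obtain ⟨k, rfl⟩ := hy; exact (D.isLine_u k).comm n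
  | zero => rw [zero_mul, mul_zero]
  | add a b _ _ ha hb => rw [add_mul, mul_add, ha, hb]
  | smul c a _ ha => rw [smul_mul_assoc, mul_smul_comm, ha]

theorem mul_mem_bSpan {y z : MonoidAlgebra ℂ X} (hy : y ∈ bSpan D K) (hz : z ∈ bSpan D K) :
    y * z ∈ bSpan D K := by
  induction hy using Submodule.span_induction with
  | mem y hy =>
    obtain ⟨k, rfl⟩ := hy
    induction hz using Submodule.span_induction with
    | mem z hz =>
      obtain ⟨l, rfl⟩ := hz
      exact line_mem_bSpan (mul_mem k.2 l.2) ((D.isLine_u k).mul (D.isLine_u l))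
    | zero => rw [mul_zero]; exact zero_mem _
    | add a b _ _ ha hb => rw [mul_add]; exact add_mem ha hb
    | smul c a _ ha => rw [mul_smul_comm]; exact Submodule.smul_mem _ _ ha
  | zero => rw [zero_mul]; exact zero_mem _
  | add a b _ _ ha hb => rw [add_mul]; exact add_mem ha hb
  | smul c a _ ha => rw [smul_mul_assoc]; exact Submodule.smul_mem _ _ ha

theorem pAvg_line (hK : D.Sec K) (hnd : D.Nondeg K) {l : X} (hl : l ∈ K) [Decidable (l ∈ D.N)]
    {y : MonoidAlgebra ℂ X} (hy : D.IsLine l y) :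
    D.pAvg K y = if l ∈ D.N then y else 0 := by
  have h : ∀ k : K, D.u k * y * D.w k = D.om k l • y := fun k => by
    rw [D.mul_eq_om_smul (hK.comm k k.2 l hl) (D.isLine_u k) hy, smul_mul_assoc, mul_assoc,
      D.u_mul_w, hy.mul_idem]
  rw [pAvg_apply, Finset.sum_congr rfl fun k _ => h k, ← Finset.sum_smul, smul_smul,
    hK.sum_om hnd hl]
  split_ifs with hlN
  · rw [inv_mul_cancel₀ (Nat.cast_ne_zero.2 Nat.card_pos.ne'), one_smul]
  · rw [mul_zero, zero_smul]

theorem pAvg_mem_idem (hK : D.Sec K) (hnd : D.Nondeg K) {y : MonoidAlgebra ℂ X}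
    (hy : y ∈ bSpan D K) : ∃ c : ℂ, D.pAvg K y = c • D.idem := by
  classical
  induction hy using Submodule.span_induction with
  | mem y hy =>
    obtain ⟨l, rfl⟩ := hy
    rw [pAvg_line hK hnd l.2 (D.isLine_u l)]
    split_ifs with h
    · refine IsLine.eq_smul_idem ((D.isLine_u l).congr ?_)
      simpa using inv_mem h
    · exact ⟨0, (zero_smul _ _).symm⟩
  | zero => exact ⟨0, by simp⟩
  | add a b _ _ ha hb =>
    obtain ⟨c, hc⟩ := ha
    obtain ⟨c', hc'⟩ := hb
    exact ⟨c + c', by rw [map_add, hc, hc', add_smul]⟩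
  | smul r a _ ha =>
    obtain ⟨c, hc⟩ := ha
    exact ⟨r * c, by rw [map_smul, hc, smul_smul]⟩

theorem recon (hK : D.Sec K) (hnd : D.Nondeg K) {y : MonoidAlgebra ℂ X}
    (hy : y ∈ bSpan D K) :
    ∑ m : K, D.u m * D.pAvg K (D.w m * y) = (Nat.card D.N : ℂ) • y := by
  classical
  induction hy using Submodule.span_induction with
  | mem y hy =>
    obtain ⟨l, rfl⟩ := hy
    have h : ∀ m : K, D.u m * D.pAvg K (D.w m * D.u l)
        = if ((m : X)⁻¹ * l ∈ D.N) then D.u l else 0 := fun m => by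
      rw [pAvg_line hK hnd (mul_mem (inv_mem m.2) l.2) ((D.isLine_w m).mul (D.isLine_u l))]
      split_ifs with h
      · rw [← mul_assoc, D.u_mul_w, (D.isLine_u l).idem_mul]
      · rw [mul_zero]
    show ∑ m : K, D.u m * D.pAvg K (D.w m * D.u l) = _
    rw [Finset.sum_congr rfl fun m _ => h m, Finset.sum_ite, Finset.sum_const_zero, add_zero,
      Finset.sum_const, ← Nat.cast_smul_eq_nsmul ℂ]
    congr 2
    rw [Nat.card_eq_fintype_card, ← Finset.card_univ]
    refine Finset.card_bij' (fun m hm => (⟨(m : X)⁻¹ * l, (Finset.mem_filter.1 hm).2⟩ : D.N))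
      (fun n _ => (⟨l * (n : X)⁻¹, mul_mem l.2 (inv_mem (hK.le n.2))⟩ : K)) (fun _ _ => Finset.mem_univ _)
      (fun n _ => Finset.mem_filter.2 ⟨Finset.mem_univ _, by simp⟩)
      (fun m _ => Subtype.ext (by simp)) (fun n _ => Subtype.ext (by simp))
  | zero => simp
  | add a b _ _ ha hb => simp only [mul_add, map_add, Finset.sum_add_distrib, ha, hb, smul_add]
  | smul c a _ ha =>
    simp only [mul_smul_comm, map_smul, ← Finset.smul_sum, ha]
    rw [smul_comm]

/-- The inverting condition. -/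
def Rel (D : BaseRep X) (K : Subgroup X) (x : MonoidAlgebra ℂ X) : Prop :=
  x ∈ bSpan D K ∧ x ≠ 0 ∧ ∀ k ∈ K, ∃ c : ℂ, D.u k * x * D.u k = c • x

theorem exists_rel (hK : D.Sec K) : ∃ x, Rel D K x := by
  classical
  let L : K → Module.End ℂ (MonoidAlgebra ℂ X) := fun k =>
    (LinearMap.mulRight ℂ (D.u k)).comp (LinearMap.mulLeft ℂ (D.u k))
  have hLapp : ∀ k y, L k y = D.u k * y * D.u k := fun k y => rfl
  have hLB : ∀ k, ∀ y ∈ bSpan D K, L k y ∈ bSpan D K := fun k y hy => by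
    rw [hLapp]
    exact mul_mem_bSpan (mul_mem_bSpan (u_mem_bSpan k.2) hy) (u_mem_bSpan k.2)
  have hLcomm : ∀ k l y, L k (L l y) = L l (L k y) := fun k l y => by
    rw [hLapp, hLapp, hLapp, hLapp,
      show D.u k * (D.u l * y * D.u l) * D.u k = (D.u k * D.u l) * y * (D.u l * D.u k) by
        simp only [mul_assoc],
      show D.u l * (D.u k * y * D.u k) * D.u l = (D.u l * D.u k) * y * (D.u k * D.u l) by
        simp only [mul_assoc],
      D.mul_eq_om_smul (hK.comm k k.2 l l.2) (D.isLine_u k) (D.isLine_u l)]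
    simp only [mul_smul_comm, smul_mul_assoc]
  suffices h : ∀ s : Finset K, ∃ P : Submodule ℂ (MonoidAlgebra ℂ X), P ≤ bSpan D K ∧ P ≠ ⊥ ∧
      (∀ k, ∀ y ∈ P, L k y ∈ P) ∧ ∀ k ∈ s, ∃ c : ℂ, ∀ y ∈ P, L k y = c • y by
    obtain ⟨P, hPB, hP0, -, hP⟩ := h Finset.univ
    obtain ⟨x, hxP, hx0⟩ := Submodule.exists_mem_ne_zero_of_ne_bot hP0
    refine ⟨x, hPB hxP, hx0, fun k hk => ?_⟩
    obtain ⟨c, hc⟩ := hP ⟨k, hk⟩ (Finset.mem_univ _)
    exact ⟨c, hc x hxP⟩
  intro s
  induction s using Finset.induction_on with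
  | empty =>
    refine ⟨bSpan D K, le_rfl, ?_, hLB, by simp⟩
    rw [Submodule.ne_bot_iff]
    exact ⟨D.u (1 : K), u_mem_bSpan (one_mem K), D.u_ne_zero _⟩
  | insert a s ha ih =>
    obtain ⟨P, hPB, hP0, hPL, hPs⟩ := ih
    haveI : Nontrivial P := Submodule.nontrivial_iff_ne_bot.2 hP0
    obtain ⟨μ, hμ⟩ := Module.End.exists_eigenvalue ((L a).restrict (hPL a))
    obtain ⟨v, hv, hv0⟩ := Submodule.exists_mem_ne_zero_of_ne_bot hμ
    have hva : L a (v : MonoidAlgebra ℂ X) = μ • (v : MonoidAlgebra ℂ X) :=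
      congrArg Subtype.val (Module.End.mem_eigenspace_iff.1 hv)
    refine ⟨P ⊓ LinearMap.ker (L a - μ • LinearMap.id), inf_le_left.trans hPB, ?_, ?_, ?_⟩
    · rw [Submodule.ne_bot_iff]
      exact ⟨v, ⟨v.2, by simp [hva]⟩, fun h => hv0 (Subtype.ext h)⟩
    · rintro k y ⟨hyP, hyk⟩
      refine ⟨hPL k y hyP, ?_⟩
      simp only [SetLike.mem_coe, LinearMap.mem_ker, LinearMap.sub_apply, LinearMap.smul_apply,
        LinearMap.id_apply, sub_eq_zero] at hyk ⊢
      rw [hLcomm, hyk, map_smul]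
    · intro k hk
      rcases Finset.mem_insert.1 hk with rfl | hk
      · refine ⟨μ, fun y hy => ?_⟩
        simpa [sub_eq_zero] using hy.2
      · obtain ⟨c, hc⟩ := hPs k hk
        exact ⟨c, fun y hy => hc y hy.1⟩

variable {x : MonoidAlgebra ℂ X}

theorem Rel.scalars (hx : Rel D K x) {k : X} (hk : k ∈ K) :
    ∃ c : ℂ, c ≠ 0 ∧ D.u k * x = c • (x * D.w k) ∧ D.w k * x = c⁻¹ • (x * D.u k) := by
  obtain ⟨hxB, hx0, hr⟩ := hx
  obtain ⟨c, hc⟩ := hr k hk
  have h1 : D.u k * x = c • (x * D.w k) := by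
    have := congrArg (· * D.w k) hc
    simp only [smul_mul_assoc, mul_assoc, D.u_mul_w] at this
    rwa [mul_idem_of_mem hxB] at this
  have hc0 : c ≠ 0 := fun h0 => hx0 (by
    have h2 := congrArg (D.w k * ·) h1
    simp only [h0, zero_smul, mul_zero, ← mul_assoc, D.w_mul_u] at h2
    rwa [idem_mul_of_mem hxB] at h2)
  refine ⟨c, hc0, h1, ?_⟩
  have h2 := congrArg (fun z => D.w k * z * D.u k) h1
  simp only [← mul_assoc, D.w_mul_u, mul_smul_comm, smul_mul_assoc] at h2
  rw [idem_mul_of_mem hxB, mul_assoc (D.w k * x) (D.w k) (D.u k), D.w_mul_u, mul_assoc (D.w k) x,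
    mul_idem_of_mem hxB] at h2
  rw [h2, smul_smul, inv_mul_cancel₀ hc0, one_smul]

theorem Rel.sq (hK : D.Sec K) (hnd : D.Nondeg K) (hx : Rel D K x) :
    ∃ c : ℂ, c ≠ 0 ∧ x * x = c • D.idem := by
  classical
  have hxx : ∀ k : K, D.u k * (x * x) * D.w k = x * x := fun k => by
    obtain ⟨c, hc0, h1, h2⟩ := hx.scalars k.2
    rw [← mul_assoc, h1, smul_mul_assoc, mul_assoc x, h2, mul_smul_comm, smul_smul,
      mul_inv_cancel₀ hc0, one_smul, mul_assoc, mul_assoc, D.u_mul_w, mul_idem_of_mem hx.1]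
  obtain ⟨c, hc⟩ := pAvg_mem_idem hK hnd (mul_mem_bSpan hx.1 hx.1)
  rw [pAvg_apply, Finset.sum_congr rfl fun k _ => hxx k, Finset.sum_const, Finset.card_univ,
    ← Nat.cast_smul_eq_nsmul ℂ, smul_smul, ← Nat.card_eq_fintype_card,
    inv_mul_cancel₀ (Nat.cast_ne_zero.2 Nat.card_pos.ne'), one_smul] at hc
  refine ⟨c, fun hc0 => ?_, hc⟩
  -- if `x * x = 0` then `x` annihilates everything
  rw [hc0, zero_smul] at hc
  have hxwx : ∀ k : K, x * D.w k * x = 0 := fun k => by
    obtain ⟨c, hc0, h1, h2⟩ := hx.scalars k.2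
    rw [mul_assoc, h2, mul_smul_comm, ← mul_assoc, hc, zero_mul, smul_zero]
  have hz : ∀ m : K, D.u m * D.pAvg K (D.w m * x) = 0 := fun m => by
    obtain ⟨a, ha⟩ := pAvg_mem_idem hK hnd
      (mul_mem_bSpan (line_mem_bSpan (inv_mem m.2) (D.isLine_w m)) hx.1)
    have h0 : D.pAvg K (D.w m * x) * x = 0 := by
      rw [pAvg_apply, smul_mul_assoc, Finset.sum_mul, Finset.sum_eq_zero, smul_zero]
      intro k _
      simp only [mul_assoc]
      rw [← mul_assoc x, hxwx k, mul_zero, mul_zero]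
    rw [ha, smul_mul_assoc, idem_mul_of_mem hx.1, smul_eq_zero] at h0
    rw [ha, h0.resolve_right hx.2.1, zero_smul, mul_zero]
  have h := recon hK hnd hx.1
  rw [Finset.sum_eq_zero fun m _ => hz m, eq_comm, smul_eq_zero] at h
  exact hx.2.1 (h.resolve_left (Nat.cast_ne_zero.2 Nat.card_pos.ne'))

theorem Rel.exists_u_mul (hK : D.Sec K) (hnd : D.Nondeg K) (hx : Rel D K x)
    {y : MonoidAlgebra ℂ X} (hy : Rel D K y) :
    ∃ (m : X) (c : ℂ), m ∈ K ∧ y = c • (D.u m * x) := by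
  classical
  obtain ⟨c0, hc0, hxx⟩ := hx.sq hK hnd
  have hzx : y * x * x = c0 • y := by
    rw [mul_assoc, hxx, mul_smul_comm, mul_idem_of_mem hy.1]
  have hzB : y * x ∈ bSpan D K := mul_mem_bSpan hy.1 hx.1
  have hz0 : y * x ≠ 0 := fun h => hy.2.1 (by
    rw [h, zero_mul, eq_comm, smul_eq_zero] at hzx
    exact hzx.resolve_left hc0)
  obtain ⟨m, hm⟩ : ∃ m : K, D.pAvg K (D.w m * (y * x)) ≠ 0 := by
    by_contra h
    push Not at h
    have h' := recon hK hnd hzB
    rw [Finset.sum_eq_zero fun m _ => by rw [h m, mul_zero], eq_comm, smul_eq_zero] at h'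
    exact hz0 (h'.resolve_left (Nat.cast_ne_zero.2 Nat.card_pos.ne'))
  have hz : ∀ k : K, ∃ μ : ℂ, D.u k * (D.w m * (y * x)) * D.w k = μ • (D.w m * (y * x)) := by
    intro k
    obtain ⟨c, -, h1, h2⟩ := hx.scalars k.2
    obtain ⟨c', -, h1', -⟩ := hy.scalars k.2
    refine ⟨D.om k ((m : X)⁻¹) * (c' * c⁻¹), ?_⟩
    rw [← mul_assoc (D.u k), D.mul_eq_om_smul (hK.comm k k.2 _ (inv_mem m.2)) (D.isLine_u k)
      (D.isLine_w m)]
    simp only [smul_mul_assoc, mul_assoc]
    rw [← mul_assoc (D.u k) y, h1', smul_mul_assoc, mul_assoc y, ← mul_assoc (D.w k) x, h2]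
    simp only [smul_mul_assoc, mul_smul_comm, smul_smul, mul_assoc, D.u_mul_w,
      mul_idem_of_mem hx.1]
  choose μ hμ using hz
  have hp : D.pAvg K (D.w m * (y * x))
      = ((Nat.card K : ℂ)⁻¹ * ∑ k, μ k) • (D.w m * (y * x)) := by
    rw [pAvg_apply, Finset.sum_congr rfl fun k _ => hμ k, ← Finset.sum_smul, smul_smul]
  obtain ⟨a, ha⟩ := pAvg_mem_idem hK hnd
    (mul_mem_bSpan (line_mem_bSpan (inv_mem m.2) (D.isLine_w m)) hzB)
  rw [hp] at hm
  have hs : (Nat.card K : ℂ)⁻¹ * ∑ k, μ k ≠ 0 := fun h => hm (by rw [h, zero_smul])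
  rw [hp] at ha
  refine ⟨m, c0⁻¹ * (((Nat.card K : ℂ)⁻¹ * ∑ k, μ k)⁻¹ * a), m.2, ?_⟩
  have h1 : D.w m * (y * x) = (((Nat.card K : ℂ)⁻¹ * ∑ k, μ k)⁻¹ * a) • D.idem := by
    rw [← smul_smul, ← ha, smul_smul, inv_mul_cancel₀ hs, one_smul]
  have h2 := congrArg (D.u m * ·) h1
  simp only [← mul_assoc, D.u_mul_w, idem_mul_of_mem hy.1, mul_smul_comm,
    (D.isLine_u m).mul_idem] at h2
  have h3 := congrArg (· * x) h2
  simp only [hzx, smul_mul_assoc] at h3
  rw [← smul_smul, ← h3, smul_smul, inv_mul_cancel₀ hc0, one_smul]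

theorem Rel.mem_of_smul_eq (hK : D.Sec K) (hnd : D.Nondeg K) (hx : Rel D K x) {p q : X}
    (hp : p ∈ K) (hq : q ∈ K) {c : ℂ} (h : D.u p * x = c • (D.u q * x)) : p⁻¹ * q ∈ D.N := by
  obtain ⟨c0, hc0, hxx⟩ := hx.sq hK hnd
  have h1 : D.u p = c • D.u q := by
    have h2 := congrArg (· * x) h
    simp only [mul_assoc, smul_mul_assoc, hxx, mul_smul_comm, (D.isLine_u p).mul_idem,
      (D.isLine_u q).mul_idem] at h2
    rw [smul_comm c c0] at h2
    exact smul_right_injective _ hc0 h2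
  have hc : c ≠ 0 := fun h0 => D.u_ne_zero p (by rw [h1, h0, zero_smul])
  refine hnd _ (mul_mem (inv_mem hp) hq) fun k hk => ?_
  have h3 : D.w p * D.u q = c⁻¹ • D.idem := by
    rw [← D.w_mul_u p]
    rw [h1]
    rw [mul_smul_comm, smul_smul, inv_mul_cancel₀ hc, one_smul]
  refine D.om_eq_of (hK.comm k hk _ (mul_mem (inv_mem hp) hq)) (D.isLine_u k)
    ((D.isLine_w p).mul (D.isLine_u q)) (D.u_ne_zero k)
    (D.mul_ne_zero_line (D.isLine_w p) (D.isLine_u q) (D.w_ne_zero p) (D.u_ne_zero q)) ?_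
  rw [one_smul, h3, mul_smul_comm, smul_mul_assoc, (D.isLine_u k).mul_idem,
    (D.isLine_u k).idem_mul]

theorem Rel.map {f : X →* X} (hf : BaseMap D D f) (hfK : ∀ k ∈ K, f k ∈ K)
    (hfsurj : ∀ k ∈ K, ∃ l ∈ K, f l = k) (hx : Rel D K x) :
    Rel D K (mapDomainAlgHom ℂ ℂ f x) := by
  obtain ⟨hxB, hx0, hr⟩ := hx
  refine ⟨?_, hf.map_ne_zero hx0, fun k hk => ?_⟩
  · clear hr hx0
    induction hxB using Submodule.span_induction with
    | mem y hy =>
      obtain ⟨l, rfl⟩ := hy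
      exact line_mem_bSpan (hfK _ l.2) (hf.map_isLine (D.isLine_u l))
    | zero => rw [map_zero]; exact zero_mem _
    | add a b _ _ ha hb => rw [map_add]; exact add_mem ha hb
    | smul r a _ ha => rw [map_smul]; exact Submodule.smul_mem _ _ ha
  · obtain ⟨l, hl, rfl⟩ := hfsurj k hk
    obtain ⟨c, hc⟩ := hr l hl
    obtain ⟨s, hs⟩ := D.exists_eq_smul_u (hf.map_isLine (D.isLine_u l))
    have hs0 : s ≠ 0 := fun h => hf.map_ne_zero (D.u_ne_zero l) (by rw [hs, h, zero_smul])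
    refine ⟨c / (s * s), ?_⟩
    have h := congrArg (mapDomainAlgHom ℂ ℂ f) hc
    rw [map_mul, map_mul, map_smul, hs, smul_mul_assoc, mul_smul_comm, smul_mul_assoc,
      smul_smul] at h
    refine smul_right_injective _ (mul_ne_zero hs0 hs0) ?_
    show (s * s) • _ = (s * s) • _
    rw [h, smul_smul, mul_div_cancel₀ _ (mul_ne_zero hs0 hs0)]

/-- The inverting involution centralizing `H`. -/
theorem exists_magic {A : Type*} [Group A] [Finite A] (hK : D.Sec K) (hnd : D.Nondeg K)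
    (hodd : Odd (Nat.card X)) (σ : A →* MulAut X) (hσ : ∀ a, BaseMap D D (σ a).toMonoidHom)
    (hσK : ∀ a, ∀ k ∈ K, σ a k ∈ K) (hcop : (Nat.card A).Coprime (Nat.card X))
    (hfix : ∀ k ∈ K, (∀ a, k⁻¹ * σ a k ∈ D.N) → k ∈ D.N) (H : Subgroup X)
    (hH : ∀ h ∈ H, ∃ n ∈ D.N, ∃ c : X, h = n * c ∧ ∀ a, σ a c = c) :
    ∃ j, Rel D K j ∧ j * j = D.idem ∧ ∀ h ∈ H, single h 1 * j = j * single h 1 := by
  classical
  haveI : Fintype A := Fintype.ofFinite A
  have hσsurj : ∀ a, ∀ k ∈ K, ∃ l ∈ K, σ a l = k := fun a k hk =>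
    ⟨σ a⁻¹ k, hσK _ k hk, by rw [← MulAut.mul_apply, ← map_mul, mul_inv_cancel, map_one]; rfl⟩
  let F : A → MonoidAlgebra ℂ X →ₐ[ℂ] MonoidAlgebra ℂ X := fun a =>
    mapDomainAlgHom ℂ ℂ (σ a).toMonoidHom
  have hFF : ∀ a b z, F a (F b z) = F (a * b) z := fun a b z => by
    induction z using MonoidAlgebra.induction_on with
    | of y => simp [F, map_mul]
    | add p q hp hq => simp only [map_add, hp, hq]
    | smul r p hp => simp only [map_smul, hp]
  obtain ⟨x, hx⟩ := exists_rel (D := D) hK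
  have hFx : ∀ a, Rel D K (F a x) := fun a => hx.map (hσ a) (hσK a) (hσsurj a)
  choose g c hgK hg using fun a => hx.exists_u_mul hK hnd (hFx a)
  have hcne : ∀ a, c a ≠ 0 := fun a h => (hFx a).2.1 (by rw [hg a, h, zero_smul])
  -- the cocycle in the quotient
  let N' : Subgroup K := D.N.subgroupOf K
  have hN' : N'.Normal := D.normal.subgroupOf K
  letI : CommGroup (K ⧸ N') :=
    { (inferInstance : Group (K ⧸ N')) with
      mul_comm := fun p q => by
        induction p using QuotientGroup.induction_on with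
        | H p =>
          induction q using QuotientGroup.induction_on with
          | H q =>
            rw [← QuotientGroup.mk_mul, ← QuotientGroup.mk_mul, QuotientGroup.eq,
              Subgroup.mem_subgroupOf]
            simpa [mul_assoc] using hK.comm q q.2 p p.2 }
  let q : K →* K ⧸ N' := QuotientGroup.mk' N'
  let σK : A → K →* K := fun a =>
    { toFun := fun k => ⟨σ a k, hσK a k k.2⟩
      map_one' := Subtype.ext (by simp)
      map_mul' := fun p r => Subtype.ext (by simp) }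
  let ψ : A → (K ⧸ N') →* (K ⧸ N') := fun a => QuotientGroup.map N' N' (σK a) fun k hk => by
    rw [Subgroup.mem_comap, Subgroup.mem_subgroupOf]
    exact (hσ a).mem _ hk
  have hψ : ∀ a k, ψ a (q k) = q (σK a k) := fun a k => rfl
  let G : A → K ⧸ N' := fun a => q ⟨g a, hgK a⟩
  have hline : ∀ a (m : X), ∃ s : ℂ, s ≠ 0 ∧ F a (D.u m) = s • D.u (σ a m) := fun a m => by
    obtain ⟨s, hs⟩ := D.exists_eq_smul_u ((hσ a).map_isLine (D.isLine_u m))
    exact ⟨s, fun h => (hσ a).map_ne_zero (D.u_ne_zero m) (by rw [hs, h, zero_smul]), hs⟩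
  have hmulline : ∀ m l : X, ∃ s : ℂ, D.u m * D.u l = s • D.u (m * l) := fun m l =>
    D.exists_eq_smul_u ((D.isLine_u m).mul (D.isLine_u l))
  have hcoc : ∀ a b, G (a * b) = ψ a (G b) * G a := fun a b => by
    obtain ⟨s, -, hs⟩ := hline a (g b)
    obtain ⟨t, ht⟩ := hmulline (σ a (g b)) (g a)
    have e : F (a * b) x = (c b * (c a * (s * t))) • (D.u (σ a (g b) * g a) * x) := by
      rw [← hFF, hg b, map_smul, map_mul, hs, hg a, smul_mul_assoc, mul_smul_comm, ← mul_assoc,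
        ht, smul_mul_assoc]
      simp only [smul_smul]
      congr 1
      ring
    rw [hg (a * b)] at e
    have h1 : D.u (g (a * b)) * x
        = ((c (a * b))⁻¹ * (c b * (c a * (s * t)))) • (D.u (σ a (g b) * g a) * x) := by
      rw [← smul_smul, ← e, smul_smul, inv_mul_cancel₀ (hcne _), one_smul]
    exact QuotientGroup.eq.2 (hx.mem_of_smul_eq hK hnd (hgK _) (mul_mem (hσK a _ (hgK b)) (hgK a)) h1)
  have hQcop : (Nat.card (K ⧸ N')).Coprime (Nat.card A) :=
    ((hcop.coprime_dvd_right (Subgroup.card_subgroup_dvd_card K)).coprime_dvd_right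
      (Subgroup.card_quotient_dvd_card N')).symm
  obtain ⟨m, hm⟩ := QuotientGroup.mk'_surjective N' ((powCoprime hQcop).symm (∏ b, G b))
  have hm' : q m ^ Nat.card A = ∏ b, G b := by
    show (QuotientGroup.mk' N' m) ^ Nat.card A = _
    rw [hm]
    exact (powCoprime hQcop).apply_symm_apply _
  have hkey : ∀ a, ψ a (q m) * G a = q m := fun a => by
    refine (powCoprime hQcop).injective ?_
    show (ψ a (q m) * G a) ^ Nat.card A = q m ^ Nat.card A
    rw [mul_pow, ← map_pow, hm', map_prod, Nat.card_eq_fintype_card, ← Finset.card_univ,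
      ← Finset.prod_const, ← Finset.prod_mul_distrib]
    exact (Finset.prod_congr rfl fun b _ => (hcoc a b).symm).trans
      (Equiv.prod_comp (Equiv.mulLeft a) G)
  obtain ⟨c0, hc0, hxx⟩ := hx.sq hK hnd
  have hyB : D.u m * x ∈ bSpan D K := mul_mem_bSpan (u_mem_bSpan m.2) hx.1
  have hy0 : D.u m * x ≠ 0 := fun h => by
    have h1 := congrArg (fun z => D.w m * z) h
    simp only [← mul_assoc, D.w_mul_u, mul_zero, idem_mul_of_mem hx.1] at h1
    exact hx.2.1 h1
  have hy : Rel D K (D.u m * x) := by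
    refine ⟨hyB, hy0, fun k hk => ?_⟩
    obtain ⟨d, hd⟩ := hx.2.2 k hk
    refine ⟨D.om k m * d, ?_⟩
    rw [← mul_assoc, D.mul_eq_om_smul (hK.comm k hk m m.2) (D.isLine_u k) (D.isLine_u m),
      smul_mul_assoc, smul_mul_assoc, mul_assoc (D.u m), mul_assoc (D.u m), hd, mul_smul_comm,
      smul_smul]
  have hfixy : ∀ a, ∃ s : ℂ, F a (D.u m * x) = s • (D.u m * x) := fun a => by
    obtain ⟨s, -, hs⟩ := hline a m
    obtain ⟨t, ht⟩ := hmulline (σ a m) (g a)
    have hq : q m = q (σK a m * ⟨g a, hgK a⟩) := by rw [map_mul, ← hψ]; exact (hkey a).symm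
    have hc : (m : X)⁻¹ * (σ a m * g a) ∈ D.N := by
      have h := QuotientGroup.eq.1 (show (QuotientGroup.mk m : K ⧸ N')
        = QuotientGroup.mk (σK a m * ⟨g a, hgK a⟩) from hq)
      rw [Subgroup.mem_subgroupOf] at h
      exact h
    obtain ⟨r, hr⟩ := D.exists_eq_smul_u
      ((D.isLine_u (σ a m * g a)).congr (k' := (m : X)) (by simpa [mul_assoc] using inv_mem hc))
    refine ⟨s * (c a * (t * r)), ?_⟩
    rw [map_mul, hs, hg a, smul_mul_assoc, mul_smul_comm, ← mul_assoc, ht, hr]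
    simp only [smul_mul_assoc, smul_smul]
  -- normalise the square
  obtain ⟨d, hd0, hdd⟩ := hy.sq hK hnd
  obtain ⟨r, hr⟩ := IsAlgClosed.exists_pow_nat_eq d⁻¹ two_pos
  have hr0 : r ≠ 0 := by
    rintro rfl
    exact inv_ne_zero hd0 (hr.symm.trans (zero_pow two_ne_zero))
  set j := r • (D.u m * x) with hj
  have hjrel : Rel D K j := by
    refine ⟨Submodule.smul_mem _ _ hyB, smul_ne_zero hr0 hy0, fun k hk => ?_⟩
    obtain ⟨e, he⟩ := hy.2.2 k hk
    exact ⟨e, by rw [hj, mul_smul_comm, smul_mul_assoc, he, smul_comm]⟩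
  have hjj : j * j = D.idem := by
    rw [hj, smul_mul_smul_comm, hdd, smul_smul, ← pow_two, hr, inv_mul_cancel₀ hd0, one_smul]
  refine ⟨j, hjrel, hjj, fun h hh => ?_⟩
  obtain ⟨n, hn, z, hz, hzfix⟩ := hH h hh
  let Cz : MonoidAlgebra ℂ X →ₐ[ℂ] MonoidAlgebra ℂ X :=
    mapDomainAlgHom ℂ ℂ (MulAut.conj z).toMonoidHom
  have hrelz : Rel D K (Cz (D.u m * x)) :=
    hy.map (D.baseMap_conj z) (fun k hk => hK.normal.conj_mem k hk z) fun k hk =>
      ⟨z⁻¹ * k * z, by simpa using hK.normal.conj_mem k hk z⁻¹, by simp [mul_assoc]⟩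
  obtain ⟨l, e, hlK, hle⟩ := hy.exists_u_mul hK hnd hrelz
  have he0 : e ≠ 0 := fun h0 => hrelz.2.1 (by rw [hle, h0, zero_smul])
  have hcommF : ∀ a y, F a (Cz y) = Cz (F a y) := fun a y => by
    induction y using MonoidAlgebra.induction_on with
    | of y => simp [F, Cz, hzfix a]
    | add p p' hp hp' => simp only [map_add, hp, hp']
    | smul r p hp => simp only [map_smul, hp]
  have hlN : l ∈ D.N := by
    refine hfix l hlK fun a => ?_
    obtain ⟨s, hs⟩ := hfixy a
    obtain ⟨t, ht0, ht⟩ := hline a l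
    have h1 := hcommF a (D.u m * x)
    rw [hle, map_smul, map_mul (F a) (D.u l), ht, hs, map_smul, hle, smul_mul_assoc, mul_smul_comm,
      smul_smul, smul_smul, smul_smul] at h1
    have hst : e * (t * s) ≠ 0 := by
      refine mul_ne_zero he0 (mul_ne_zero ht0 fun h0 => ?_)
      exact ((hy.map (hσ a) (hσK a) (hσsurj a)).2.1) (by rw [show mapDomainAlgHom ℂ ℂ
        (σ a).toMonoidHom (D.u m * x) = F a (D.u m * x) from rfl, hs, h0, zero_smul])
    have h2 : D.u (σ a l) * (D.u m * x)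
        = ((e * (t * s))⁻¹ * (s * e)) • (D.u l * (D.u m * x)) := by
      rw [← smul_smul, ← h1, smul_smul]
      rw [show (e * (t * s))⁻¹ * (e * t * s) = 1 by rw [mul_assoc, inv_mul_cancel₀ hst], one_smul]
    have := inv_mem (hy.mem_of_smul_eq hK hnd (hσK a l hlK) hlK h2)
    simpa using this
  obtain ⟨s, hs⟩ := D.exists_eq_smul_u (isLine_idem hlN)
  have hs0 : s ≠ 0 := fun h0 => D.idem_ne_zero (by rw [hs, h0, zero_smul])
  have hzj : single z 1 * j * single z⁻¹ 1 = (e * s⁻¹) • j := by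
    rw [← map_conj_eq, hj, map_smul, show mapDomainAlgHom ℂ ℂ (MulAut.conj z).toMonoidHom
      (D.u m * x) = Cz (D.u m * x) from rfl, hle, show D.u l = s⁻¹ • D.idem by
        rw [hs, smul_smul, inv_mul_cancel₀ hs0, one_smul], smul_mul_assoc,
      idem_mul_of_mem hyB, smul_smul, smul_smul, smul_smul]
    congr 1
    ring
  set t := e * s⁻¹
  have hconj : single h 1 * j * single h⁻¹ 1 = t • j := by
    have h3 : single h (1 : ℂ) = single n 1 * single z 1 := by
      rw [hz, single_mul_single, one_mul]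
    have h4 : single h⁻¹ (1 : ℂ) = single z⁻¹ 1 * single n⁻¹ 1 := by
      rw [hz, single_mul_single, one_mul, mul_inv_rev]
    rw [h3, h4, show single n 1 * single z 1 * j * (single z⁻¹ 1 * single n⁻¹ 1)
      = single n 1 * (single z 1 * j * single z⁻¹ 1) * single n⁻¹ 1 by simp only [mul_assoc],
      hzj, mul_smul_comm, smul_mul_assoc, single_comm_of_mem hjrel.1 ⟨n, hn⟩, mul_assoc,
      single_mul_single, mul_inv_cancel, one_mul, ← one_def, mul_one]
  have ht2 : t ^ 2 = 1 := by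
    have h5 : (single h 1 * j * single h⁻¹ 1) * (single h 1 * j * single h⁻¹ 1)
        = single h 1 * (j * j) * single h⁻¹ 1 := by
      simp only [mul_assoc]
      rw [← mul_assoc (single h⁻¹ (1 : ℂ)) (single h 1), single_mul_single, inv_mul_cancel, one_mul,
        ← one_def, one_mul]
    rw [hconj, hjj, smul_mul_smul_comm, hjj, D.single_mul_idem, mul_assoc D.idem, single_mul_single,
      mul_inv_cancel, one_mul, ← one_def, mul_one] at h5
    rw [pow_two]
    refine smul_left_injective ℂ D.idem_ne_zero ?_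
    simpa using h5
  have hpow : ∀ i : ℕ, single (h ^ i) 1 * j * single (h ^ i)⁻¹ 1 = t ^ i • j := by
    intro i
    induction i with
    | zero => simp [← one_def]
    | succ i ih =>
      rw [show single (h ^ (i + 1)) (1 : ℂ) = single h 1 * single (h ^ i) 1 by
          rw [single_mul_single, one_mul, pow_succ'],
        show single (h ^ (i + 1))⁻¹ (1 : ℂ) = single (h ^ i)⁻¹ 1 * single h⁻¹ 1 by
          rw [single_mul_single, one_mul, pow_succ', mul_inv_rev],
        show single h 1 * single (h ^ i) 1 * j * (single (h ^ i)⁻¹ 1 * single h⁻¹ 1)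
          = single h 1 * (single (h ^ i) 1 * j * single (h ^ i)⁻¹ 1) * single h⁻¹ 1 by
          simp only [mul_assoc],
        ih, mul_smul_comm, smul_mul_assoc, hconj, smul_smul, pow_succ]
  have htN : t ^ Nat.card X = 1 := by
    have h6 := hpow (Nat.card X)
    rw [pow_card_eq_one', inv_one, ← one_def, one_mul, mul_one] at h6
    refine smul_left_injective ℂ hjrel.2.1 ?_
    simpa using h6.symm
  have ht1 : t = 1 := by
    obtain ⟨i, hi⟩ := hodd
    rw [hi, pow_succ, pow_mul, ht2, one_pow, one_mul] at htN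
    exact htN
  have h7 := congrArg (· * single h (1 : ℂ)) hconj
  simp only [ht1, one_smul, mul_assoc, single_mul_single, inv_mul_cancel, ← one_def,
    mul_one] at h7
  exact h7

end BaseRep

end CfsgLib.IsaacsCorr
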