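import Cfsg.Agent.Lib.IsaacsCorr.Descent

/-!
# The correspondence for a coprime operator group of a group of odd order
-/

set_option autoImplicit false
set_option linter.style.haveILetI false
set_option linter.unusedSectionVars false

open scoped ComplexConjugate
open Cfsg CfsgLib.CharTheory CfsgLib.Frobenius CfsgLib.Clifford

namespace CfsgLib.IsaacsCorr

variable {G : Type*} [Group G] [Fintype G] {A : Type*} [Group A] [Finite A]
  {σ : A →* MulAut G} {K H : Subgroup G} [Fintype H]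

/-- A fixed character of `H` has a fixed constituent on `K ⊓ H`. -/
theorem Ctx.exists_fixed_below (c : Ctx σ K H) [(K ⊓ H).Normal] [Fintype ↥(K ⊓ H)]
    (η : IrrCharacter H) (hη : IsFix σ H (η : H → ℂ)) :
    ∃ θ : IrrCharacter ↥(K ⊓ H), IsFix σ (K ⊓ H) (θ : ↥(K ⊓ H) → ℂ) ∧
      classInner (fun n : ↥(K ⊓ H) => (η : H → ℂ) ⟨(n : G), (inf_le_right : K ⊓ H ≤ H) n.2⟩)
        (θ : ↥(K ⊓ H) → ℂ) ≠ 0 := by
  classical
  haveI : ((K ⊓ H).subgroupOf H).Normal := c.normalL.subgroupOf H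
  letI : Fintype ((K ⊓ H).subgroupOf H) := Fintype.ofFinite _
  obtain ⟨θ', hne, hfix⟩ := exists_fixed_constituent (σ := restrictHom σ H c.mapH)
    (haveI := c.solv; inferInstance)
    (c.cop.coprime_dvd_right (Subgroup.card_subgroup_dvd_card H)) ((K ⊓ H).subgroupOf H)
    (fun a n hn => c.map_inf a hn) η.2 (fun a x => hη a x _ rfl)
  let e := Subgroup.subgroupOfEquivOfLe (inf_le_right : K ⊓ H ≤ H)
  refine ⟨⟨fun n => (θ' : (K ⊓ H).subgroupOf H → ℂ) (e.symm n),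
    isIrrCharacter_comp_mulEquiv θ'.2 e.symm⟩, fun a x y hy => hfix a _ _ (Subtype.ext hy), ?_⟩
  intro h0
  exact hne ((classInner_comp_mulEquiv e.symm
    (fun n : (K ⊓ H).subgroupOf H => (η : H → ℂ) n) (θ' : (K ⊓ H).subgroupOf H → ℂ)).symm.trans h0)

/-- A constituent on `H` gives its constituents on `K ⊓ H`. -/
theorem Ctx.over_of_oddIn (_c : Ctx σ K H) [(K ⊓ H).Normal] [Fintype ↥(K ⊓ H)] {χ : G → ℂ}
    (hχ : IsIrrCharacter G χ) (η : IrrCharacter H) (ho : OddIn H χ (η : H → ℂ))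
    (θ : IrrCharacter ↥(K ⊓ H))
    (hθ : classInner (fun n : ↥(K ⊓ H) => (η : H → ℂ) ⟨(n : G), (inf_le_right : K ⊓ H ≤ H) n.2⟩)
        (θ : ↥(K ⊓ H) → ℂ) ≠ 0) :
    classInner (fun n : ↥(K ⊓ H) => χ n) (θ : ↥(K ⊓ H) → ℂ) ≠ 0 := by
  obtain ⟨m, hm, hmo⟩ := ho
  obtain ⟨a, e, ha, he, hle⟩ := classInner_res_le (inf_le_right : K ⊓ H ≤ H)
    (IsIrrCharacter.isCharacter hχ) θ.2 {η} (fun φ hφ => by
      rw [Finset.mem_singleton.1 hφ, hm]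
      exact Nat.cast_ne_zero.2 fun h0 => by simp [h0] at hmo)
  rw [Finset.sum_singleton] at hle
  rw [ha]
  refine Nat.cast_ne_zero.2 fun h0 => hθ ?_
  rw [he η, show e η = 0 by omega, Nat.cast_zero]

/-- The correspondence. -/
theorem Ctx.correspondence (c : Ctx σ K H) :
    (∀ χ : IrrCharacter G, (∀ a x, (χ : G → ℂ) (σ a x) = (χ : G → ℂ) x) →
      ∃! ψ : IrrCharacter H, IsFix σ H (ψ : H → ℂ) ∧ OddIn H (χ : G → ℂ) (ψ : H → ℂ)) ∧
    (∀ χ χ' : IrrCharacter G, (∀ a x, (χ : G → ℂ) (σ a x) = (χ : G → ℂ) x) →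
      (∀ a x, (χ' : G → ℂ) (σ a x) = (χ' : G → ℂ) x) → ∀ η : IrrCharacter H,
      IsFix σ H (η : H → ℂ) → OddIn H (χ : G → ℂ) (η : H → ℂ) →
      OddIn H (χ' : G → ℂ) (η : H → ℂ) → χ = χ') ∧
    (∀ η : IrrCharacter H, IsFix σ H (η : H → ℂ) →
      ∃ χ : IrrCharacter G, (∀ a x, (χ : G → ℂ) (σ a x) = (χ : G → ℂ) x) ∧
        OddIn H (χ : G → ℂ) (η : H → ℂ)) := by
  classical
  haveI := c.normalL
  letI : Fintype ↥(K ⊓ H) := Fintype.ofFinite _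
  refine ⟨fun χ hχ => ?_, fun χ χ' hχ hχ' η hη ho ho' => ?_, fun η hη => ?_⟩
  · obtain ⟨θ, hθχ, hθf⟩ := exists_fixed_constituent c.solv c.cop σ (K ⊓ H)
      (fun a n hn => c.map_inf a hn) χ.2 hχ
    obtain ⟨ψ, hψf, hψo, hψu⟩ := (c.local_corr θ.2 hθf).1 χ hχ hθχ
    refine ⟨ψ, ⟨hψf, hψo⟩, fun η ⟨hηf, hηo⟩ => hψu η ?_ hηo⟩
    obtain ⟨θ', hθ'f, hθ'η⟩ := c.exists_fixed_below η hηf
    obtain ⟨g, hg⟩ := exists_conj_of_constituents (K ⊓ H) χ.2 θ.2 θ'.2 hθχ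
      (c.over_of_oddIn χ.2 η hηo θ' hθ'η)
    obtain ⟨z, hz, hzθ⟩ := c.exists_fixed_conj hθf hθ'f hg
    refine fun h0 => hθ'η ?_
    rw [hzθ, ← h0]
    simp only [classInner]
    congr 1
    refine Fintype.sum_equiv (MulAut.conjNormal z : MulAut ↥(K ⊓ H)).toEquiv _ _ fun n => ?_
    show _ * conj ((θ : ↥(K ⊓ H) → ℂ) ⟨z * n * z⁻¹, _⟩) = _
    have h1 := IsIrrCharacter.isClassFunction η.2
      ⟨(n : G), (inf_le_right : K ⊓ H ≤ H) n.2⟩ ⟨z, hz⟩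
    rw [← h1]
    simp only [MulEquiv.toEquiv_eq_coe, EquivLike.coe_coe]
    congr 2
  · obtain ⟨θ, hθf, hθη⟩ := c.exists_fixed_below η hη
    exact (c.local_corr θ.2 hθf).2.1 χ χ' hχ hχ' (c.over_of_oddIn χ.2 η ho θ hθη)
      (c.over_of_oddIn χ'.2 η ho' θ hθη) η hθη ho ho'
  · obtain ⟨θ, hθf, hθη⟩ := c.exists_fixed_below η hη
    exact (c.local_corr θ.2 hθf).2.2 η hη hθη

end CfsgLib.IsaacsCorr
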