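import Cfsg.Agent.Lib.IsaacsCorr.Lines

/-!
# Transport of lines, and the bicharacter on an abelian section
-/

set_option autoImplicit false
set_option linter.style.haveILetI false
set_option linter.unusedSectionVars false

open Cfsg CfsgLib.CharTheory MonoidAlgebra

namespace CfsgLib.IsaacsCorr

variable {X : Type*} [Group X] [Fintype X] {X' : Type*} [Group X'] [Fintype X']

namespace BaseRep

/-- An injective homomorphism carrying one base character onto another. -/
structure BaseMap (D : BaseRep X) (D' : BaseRep X') (f : X →* X') : Prop where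
  inj : Function.Injective f
  mem : ∀ n ∈ D.N, f n ∈ D'.N
  surj : ∀ m ∈ D'.N, ∃ n ∈ D.N, f n = m
  char : ∀ (n : D.N) (m : D'.N), f n = (m : X') → D'.rep.character m = D.rep.character n

namespace BaseMap

variable {D : BaseRep X} {D' : BaseRep X'} {f : X →* X'} (hf : BaseMap D D' f)
include hf

theorem map_idem : mapDomainAlgHom ℂ ℂ f D.idem = D'.idem := by
  classical
  let g : D.N → D'.N := fun n => ⟨f n, hf.mem n n.2⟩
  have hg : Function.Bijective g := by
    refine ⟨fun a b h => Subtype.ext (hf.inj (congrArg Subtype.val h)), fun m => ?_⟩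
    obtain ⟨n, hn, he⟩ := hf.surj m m.2
    exact ⟨⟨n, hn⟩, Subtype.ext he⟩
  have hcard : Nat.card D.N = Nat.card D'.N := Nat.card_congr (Equiv.ofBijective g hg)
  have hd : (D'.d : ℂ) = D.d := by
    have h := hf.char 1 1 (by simp)
    simpa using h
  rw [D.idem_eq_sum, D'.idem_eq_sum, map_sum]
  refine Fintype.sum_equiv (Equiv.ofBijective g hg) _ _ fun n => ?_
  have hc : D'.rep.character (g n)⁻¹ = D.rep.character n⁻¹ := by
    refine hf.char n⁻¹ (g n)⁻¹ ?_
    simp [g]
  simp [hc, hd, hcard, g, -Nat.card_eq_fintype_card]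

theorem map_isLine {k : X} {x : MonoidAlgebra ℂ X} (h : D.IsLine k x) :
    D'.IsLine (f k) (mapDomainAlgHom ℂ ℂ f x) := by
  refine ⟨?_, ?_, fun m => ?_⟩
  · obtain ⟨b, hb⟩ := h.sec
    suffices ∀ c : MonoidAlgebra ℂ D.N, ∃ c', mapDomainAlgHom ℂ ℂ f (D.inc c) = D'.inc c' by
      obtain ⟨c', hc'⟩ := this b
      exact ⟨c', by rw [hb, map_mul, hc']; simp⟩
    intro c
    induction c using MonoidAlgebra.induction_on with
    | of n => exact ⟨single ⟨f n, hf.mem n n.2⟩ 1, by simp [inc_single]⟩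
    | add a b ha hb =>
      obtain ⟨a', ha'⟩ := ha
      obtain ⟨b', hb'⟩ := hb
      exact ⟨a' + b', by simp only [map_add, ha', hb']⟩
    | smul r a ha =>
      obtain ⟨a', ha'⟩ := ha
      exact ⟨r • a', by simp only [map_smul, ha']⟩
  · rw [← hf.map_idem, ← map_mul, h.mul_idem]
  · obtain ⟨n, hn, he⟩ := hf.surj m m.2
    have h1 := congrArg (mapDomainAlgHom ℂ ℂ f) (h.comm ⟨n, hn⟩)
    rw [map_mul, map_mul] at h1
    simpa [he] using h1

theorem map_ne_zero {x : MonoidAlgebra ℂ X} (hx : x ≠ 0) : mapDomainAlgHom ℂ ℂ f x ≠ 0 := by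
  intro h
  refine hx (mapDomain_injective hf.inj ?_)
  rw [show mapDomain f (0 : MonoidAlgebra ℂ X) = 0 from map_zero (mapDomainAlgHom ℂ ℂ f)]
  simpa using h

theorem om_map {a b : X} (hab : a⁻¹ * b⁻¹ * a * b ∈ D.N) : D'.om (f a) (f b) = D.om a b := by
  refine D'.om_eq_of (by simpa using hf.mem _ hab) (hf.map_isLine (D.isLine_u a))
    (hf.map_isLine (D.isLine_u b)) (hf.map_ne_zero (D.u_ne_zero a)) (hf.map_ne_zero (D.u_ne_zero b))
    ?_
  rw [← map_mul, ← map_mul, ← map_smul, ← D.mul_eq_om_smul hab (D.isLine_u a) (D.isLine_u b)]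

end BaseMap

variable (D : BaseRep X)

theorem baseMap_conj (g : X) : BaseMap D D (MulAut.conj g).toMonoidHom where
  inj := (MulAut.conj g).injective
  mem n hn := D.normal.conj_mem n hn g
  surj m hm := ⟨g⁻¹ * m * g, by simpa using D.normal.conj_mem m hm g⁻¹, by simp [mul_assoc]⟩
  char n m h := D.inv g n m (by simpa using h.symm)

theorem map_conj_eq (g : X) (x : MonoidAlgebra ℂ X) :
    mapDomainAlgHom ℂ ℂ (MulAut.conj g).toMonoidHom x = single g 1 * x * single g⁻¹ 1 := by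
  induction x using MonoidAlgebra.induction_on with
  | of y => simp
  | add a b ha hb => simp only [map_add, mul_add, add_mul, ha, hb]
  | smul r a ha => simp only [map_smul, mul_smul_comm, smul_mul_assoc, ha]

/-- A normal subgroup above `N` which is abelian modulo `N`. -/
structure Sec (K : Subgroup X) : Prop where
  normal : K.Normal
  le : D.N ≤ K
  comm : ∀ a ∈ K, ∀ b ∈ K, a⁻¹ * b⁻¹ * a * b ∈ D.N

variable {D} {K : Subgroup X}

theorem Sec.om_mul_left (hK : D.Sec K) {a a' b : X} (ha : a ∈ K) (ha' : a' ∈ K) (hb : b ∈ K) :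
    D.om (a * a') b = D.om a b * D.om a' b := by
  refine D.om_eq_of (hK.comm _ (mul_mem ha ha') b hb) ((D.isLine_u a).mul (D.isLine_u a'))
    (D.isLine_u b) (D.mul_ne_zero_line (D.isLine_u a) (D.isLine_u a') (D.u_ne_zero a)
      (D.u_ne_zero a')) (D.u_ne_zero b) ?_
  rw [mul_assoc, D.mul_eq_om_smul (hK.comm a' ha' b hb) (D.isLine_u a') (D.isLine_u b),
    mul_smul_comm, ← mul_assoc, D.mul_eq_om_smul (hK.comm a ha b hb) (D.isLine_u a) (D.isLine_u b),
    smul_mul_assoc, smul_smul, mul_comm, mul_assoc]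

theorem Sec.om_swap (hK : D.Sec K) {a b : X} (ha : a ∈ K) (hb : b ∈ K) :
    D.om b a = (D.om a b)⁻¹ := by
  refine D.om_eq_of (hK.comm b hb a ha) (D.isLine_u b) (D.isLine_u a) (D.u_ne_zero b)
    (D.u_ne_zero a) ?_
  rw [D.mul_eq_om_smul (hK.comm a ha b hb) (D.isLine_u a) (D.isLine_u b), smul_smul,
    inv_mul_cancel₀ (D.om_ne_zero (hK.comm a ha b hb)), one_smul]

theorem Sec.om_mul_right (hK : D.Sec K) {a b b' : X} (ha : a ∈ K) (hb : b ∈ K) (hb' : b' ∈ K) :
    D.om a (b * b') = D.om a b * D.om a b' := by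
  rw [hK.om_swap (mul_mem hb hb') ha, hK.om_mul_left hb hb' ha, mul_inv, ← hK.om_swap hb ha,
    ← hK.om_swap hb' ha]

theorem Sec.om_one_right (_hK : D.Sec K) (a : X) : D.om a 1 = 1 :=
  D.om_of_mem (one_mem _)

theorem Sec.om_inv_right (hK : D.Sec K) {a b : X} (ha : a ∈ K) (hb : b ∈ K) :
    D.om a b⁻¹ = (D.om a b)⁻¹ := by
  refine (inv_eq_of_mul_eq_one_right ?_).symm
  rw [← hK.om_mul_right ha hb (inv_mem hb), mul_inv_cancel, D.om_of_mem (one_mem _)]

theorem Sec.om_inv_left (hK : D.Sec K) {a b : X} (ha : a ∈ K) (hb : b ∈ K) :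
    D.om a⁻¹ b = (D.om a b)⁻¹ := by
  rw [hK.om_swap hb (inv_mem ha), hK.om_inv_right hb ha, hK.om_swap hb ha]

theorem Sec.om_conj (hK : D.Sec K) {a b : X} (ha : a ∈ K) (hb : b ∈ K) (g : X) :
    D.om (g * a * g⁻¹) (g * b * g⁻¹) = D.om a b := by
  simpa using (D.baseMap_conj g).om_map (hK.comm a ha b hb)

/-- The commutation scalars with a fixed element form a character of `K`. -/
noncomputable def Sec.omHom (hK : D.Sec K) {m : X} (hm : m ∈ K) : K →* ℂ where
  toFun k := D.om k m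
  map_one' := by
    rw [Subgroup.coe_one, hK.om_swap hm (one_mem _), D.om_of_mem (one_mem _), inv_one]
  map_mul' a b := hK.om_mul_left a.2 b.2 hm

/-- The radical is trivial. -/
def Nondeg (D : BaseRep X) (K : Subgroup X) : Prop :=
  ∀ m ∈ K, (∀ k ∈ K, D.om k m = 1) → m ∈ D.N

theorem Sec.sum_om_eq_zero (hK : D.Sec K) (hnd : D.Nondeg K) [Fintype K] {m : X} (hm : m ∈ K)
    (hmN : m ∉ D.N) : ∑ k : K, D.om k m = 0 := by
  obtain ⟨k₀, hk₀, hne⟩ : ∃ k ∈ K, D.om k m ≠ 1 := by
    by_contra h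
    push Not at h
    exact hmN (hnd m hm h)
  have h1 : D.om k₀ m * ∑ k : K, D.om k m = ∑ k : K, D.om k m := by
    rw [Finset.mul_sum]
    exact Fintype.sum_equiv (Equiv.mulLeft (⟨k₀, hk₀⟩ : K)) _ _
      fun k => (hK.om_mul_left hk₀ k.2 hm).symm
  have h2 : (D.om k₀ m - 1) * ∑ k : K, D.om k m = 0 := by rw [sub_mul, h1, one_mul, sub_self]
  exact (mul_eq_zero.1 h2).resolve_left (sub_ne_zero.2 hne)

theorem Sec.sum_om (hK : D.Sec K) (hnd : D.Nondeg K) [Fintype K] {m : X} (hm : m ∈ K)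
    [Decidable (m ∈ D.N)] :
    ∑ k : K, D.om k m = if m ∈ D.N then (Nat.card K : ℂ) else 0 := by
  split_ifs with h
  · simp [D.om_of_mem h, Nat.card_eq_fintype_card]
  · exact hK.sum_om_eq_zero hnd hm h

theorem Sec.sum_om_right_eq_zero (hK : D.Sec K) (hnd : D.Nondeg K) [Fintype K] {a : X}
    (ha : a ∈ K) (haN : a ∉ D.N) : ∑ m : K, D.om a m = 0 := by
  rw [← hK.sum_om_eq_zero hnd (inv_mem ha) (fun h => haN (by simpa using inv_mem h))]
  exact Finset.sum_congr rfl fun m _ => by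
    rw [hK.om_inv_right m.2 ha, ← hK.om_swap m.2 ha]

end BaseRep

end CfsgLib.IsaacsCorr
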