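import Cfsg.Agent.Lib.IsaacsCorr.Core
import Cfsg.Agent.Lib.Clifford.Extension

/-!
# The radical of the commutation form and the extensions of an invariant character

For an invariant character of `L` and the abelian section `K / L`, the radical `M` of the
commutation form is normal, every character of `M` over the base restricts irreducibly to `L`, and
exactly one of them is fixed by the operators.
-/

set_option autoImplicit false
set_option linter.style.haveILetI false
set_option linter.unusedSectionVars false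

open scoped ComplexConjugate
open Cfsg CfsgLib.CharTheory CfsgLib.Frobenius CfsgLib.Clifford MonoidAlgebra

namespace CfsgLib.IsaacsCorr

variable {X : Type*} [Group X] [Fintype X] {A : Type*} [Group A] [Finite A]

namespace BaseRep

/-- The standing hypotheses for a section with fixed point free operators. -/
structure Data (D : BaseRep X) (K H : Subgroup X) (σ : A →* MulAut X) : Prop where
  odd : Odd (Nat.card X)
  sec : D.Sec K
  le : D.N ≤ H
  inf : ∀ x ∈ K, x ∈ H → x ∈ D.N
  sup : ∀ x : X, ∃ k ∈ K, ∃ h ∈ H, x = k * h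
  cop : (Nat.card A).Coprime (Nat.card X)
  map : ∀ a, BaseMap D D (σ a).toMonoidHom
  mapK : ∀ a, ∀ k ∈ K, σ a k ∈ K
  fix : ∀ k ∈ K, (∀ a, k⁻¹ * σ a k ∈ D.N) → k ∈ D.N
  decomp : ∀ h ∈ H, ∃ n ∈ D.N, ∃ c : X, h = n * c ∧ ∀ a, σ a c = c

variable {D : BaseRep X} {K H : Subgroup X} {σ : A →* MulAut X}

/-- The radical of the commutation form. -/
def rad (hK : D.Sec K) : Subgroup X where
  carrier := {m | m ∈ K ∧ ∀ k ∈ K, D.om k m = 1}
  one_mem' := ⟨one_mem K, fun _ _ => D.om_of_mem (one_mem _)⟩
  mul_mem' := fun {a b} ha hb => ⟨mul_mem ha.1 hb.1, fun k hk => by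
    rw [hK.om_mul_right hk ha.1 hb.1, ha.2 k hk, hb.2 k hk, one_mul]⟩
  inv_mem' := fun {a} ha => ⟨inv_mem ha.1, fun k hk => by
    rw [hK.om_inv_right hk ha.1, ha.2 k hk, inv_one]⟩

theorem le_rad (hK : D.Sec K) : D.N ≤ rad hK := fun _ hn =>
  ⟨hK.le hn, fun _ _ => D.om_of_mem hn⟩

theorem rad_normal (hK : D.Sec K) : (rad hK).Normal :=
  ⟨fun m hm g => ⟨hK.normal.conj_mem m hm.1 g, fun k hk => by
    have h1 : g⁻¹ * k * g ∈ K := by simpa using hK.normal.conj_mem k hk g⁻¹
    have h2 := hK.om_conj h1 hm.1 g
    rw [show g * (g⁻¹ * k * g) * g⁻¹ = k by group, hm.2 _ h1] at h2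
    exact h2⟩⟩

theorem Data.map_rad (d : Data D K H σ) (a : A) {m : X} (hm : m ∈ rad d.sec) :
    σ a m ∈ rad d.sec := by
  refine ⟨d.mapK a m hm.1, fun k hk => ?_⟩
  obtain ⟨l, hl, rfl⟩ : ∃ l ∈ K, σ a l = k :=
    ⟨σ a⁻¹ k, d.mapK _ k hk, by rw [← MulAut.mul_apply, ← map_mul, mul_inv_cancel, map_one]; rfl⟩
  have h := (d.map a).om_map (d.sec.comm l hl m hm.1)
  rw [hm.2 l hl] at h
  exact h

theorem Data.map_H (d : Data D K H σ) (a : A) {h : X} (hh : h ∈ H) : σ a h ∈ H := by
  obtain ⟨n, hn, c, rfl, hc⟩ := d.decomp h hh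
  rw [map_mul, hc a]
  have hcH : c ∈ H := by simpa using mul_mem (inv_mem (d.le hn)) hh
  exact mul_mem (d.le ((d.map a).mem n hn)) hcH

/-- The restriction of an automorphism to an invariant subgroup. -/
noncomputable def autRestrict (M : Subgroup X) (f : X ≃* X) (hf : ∀ m ∈ M, f m ∈ M) : M ≃* M :=
  MulEquiv.ofBijective
    ({ toFun := fun m => ⟨f m, hf m m.2⟩
       map_one' := Subtype.ext (by simp)
       map_mul' := fun a b => Subtype.ext (by simp) } : M →* M)
    (Finite.injective_iff_bijective.1 fun a b h =>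
      Subtype.ext (f.injective (congrArg Subtype.val h)))

theorem autRestrict_apply (M : Subgroup X) (f : X ≃* X) (hf : ∀ m ∈ M, f m ∈ M) (m : M) :
    ((autRestrict M f hf m : M) : X) = f m := rfl

/-- The inclusion of `C[L]` in `C[M]`. -/
noncomputable def incTo (D : BaseRep X) (M : Subgroup X) (h : D.N ≤ M) :
    MonoidAlgebra ℂ D.N →ₐ[ℂ] MonoidAlgebra ℂ M :=
  mapDomainAlgHom ℂ ℂ (Subgroup.inclusion h)

/-- The inclusion of `C[M]` in `C[X]`. -/
noncomputable def incOf (M : Subgroup X) : MonoidAlgebra ℂ M →ₐ[ℂ] MonoidAlgebra ℂ X :=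
  mapDomainAlgHom ℂ ℂ M.subtype

theorem incOf_injective (M : Subgroup X) : Function.Injective (incOf M) := by
  intro a b h
  exact mapDomain_injective (f := (M.subtype : M → X)) Subtype.val_injective
    (by simpa [incOf] using h)

theorem incOf_single (M : Subgroup X) (m : M) : incOf M (single m 1) = single (m : X) 1 := by
  simp [incOf]

theorem incOf_incTo (D : BaseRep X) (M : Subgroup X) (h : D.N ≤ M) (b : MonoidAlgebra ℂ D.N) :
    incOf M (incTo D M h b) = D.inc b := by
  induction b using MonoidAlgebra.induction_on with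
  | of n => simp [incOf, incTo, inc_single]
  | add x y hx hy => simp only [map_add, hx, hy]
  | smul r x hx => simp only [map_smul, hx]

/-- An element of `u r` inside `C[M]`. -/
theorem exists_lift (D : BaseRep X) (M : Subgroup X) (h : D.N ≤ M) (r : M) :
    ∃ v : MonoidAlgebra ℂ M, incOf M v = D.u r := by
  obtain ⟨b, hb⟩ := (D.isLine_u r).sec
  exact ⟨single r 1 * incTo D M h b, by rw [map_mul, incOf_single, incOf_incTo, hb]⟩

section Restriction

variable {V : Type*} [AddCommGroup V] [Module ℂ V] [FiniteDimensional ℂ V] {M : Subgroup X}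
  [Fintype M]
  (hDM : D.N ≤ M) (τ : Representation ℂ M V)

theorem asAlgebraHom_incTo_idemN {a : ℂ}
    (ha : ∀ n : D.N, τ.character (Subgroup.inclusion hDM n) = a * D.rep.character n) :
    τ.asAlgebraHom (incTo D M hDM D.idemN) = 1 := by
  let e : D.N.subgroupOf M ≃* D.N := Subgroup.subgroupOfEquivOfLe hDM
  let ρ' : Representation ℂ (D.N.subgroupOf M) (Fin D.d → ℂ) := D.rep.comp e.toMonoidHom
  haveI : ρ'.IsIrreducible := isIrreducible_comp D.rep e.surjective
  let D' : BaseRep M :=
    { N := D.N.subgroupOf M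
      normal := D.normal.subgroupOf M
      d := D.d
      rep := ρ'
      irr := inferInstance
      inv := fun x n m h => D.inv (x : X) (e n) (e m) (congrArg Subtype.val h) }
  have hmap : BaseMap D' D M.subtype :=
    { inj := Subtype.val_injective
      mem := fun n hn => hn
      surj := fun m hm => ⟨⟨m, hDM hm⟩, hm, rfl⟩
      char := fun n m h => by
        have : e n = m := Subtype.ext h
        show D.rep.character m = D.rep.character (e n)
        rw [this] }
  have heq : incTo D M hDM D.idemN = D'.idem := by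
    refine incOf_injective M ?_
    rw [incOf_incTo]
    exact hmap.map_idem.symm
  rw [heq]
  refine D'.asAlgebraHom_idem_eq_one τ (a := a) fun n => ?_
  exact ha (e n)

end Restriction

/-- A character of the radical over the base restricts to it. -/
theorem res_rad_eq (hK : D.Sec K) {ξ : rad hK → ℂ} (hξ : IsIrrCharacter (rad hK) ξ)
    (h : classInner (fun n : D.N => ξ (Subgroup.inclusion (le_rad hK) n)) D.rep.character ≠ 0) :
    ∀ n : D.N, ξ (Subgroup.inclusion (le_rad hK) n) = D.rep.character n := by
  classical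
  haveI := rad_normal hK
  letI : Fintype (rad hK) := Fintype.ofFinite _
  obtain ⟨k, τ, hτ, rfl⟩ := hξ
  have hinv : ∀ g ∈ rad hK, conjChar D.N D.rep.character g = D.rep.character := fun g _ =>
    funext fun n => D.inv g n _ rfl
  have hmult := res_eq_of_invariant_of_le (le_rad hK) (isIrrCharacter_character D.rep) hinv
    (isIrrCharacter_character τ) h
  set a := classInner (fun n : D.N => τ.character (Subgroup.inclusion (le_rad hK) n))
    D.rep.character with haa
  have ha : ∀ n : D.N, τ.character (Subgroup.inclusion (le_rad hK) n) = a * D.rep.character n :=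
    fun n => congrFun hmult n
  have hτe := asAlgebraHom_incTo_idemN (le_rad hK) τ ha
  let τN : Representation ℂ D.N (Fin k → ℂ) := τ.comp (Subgroup.inclusion (le_rad hK))
  have hsplit : ∀ r : rad hK, ∃ (v : MonoidAlgebra ℂ (rad hK)) (b : MonoidAlgebra ℂ D.N),
      incOf (rad hK) v = D.u r ∧ τ r = τ.asAlgebraHom v * τ.asAlgebraHom (incTo D _ (le_rad hK) b) :=
    fun r => by
    obtain ⟨v, hv⟩ := exists_lift D (rad hK) (le_rad hK) r
    obtain ⟨b, hb⟩ := D.exists_w_mul_single (r : X)
    refine ⟨v, b, hv, ?_⟩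
    have h2 : v * incTo D _ (le_rad hK) b = single r 1 * incTo D _ (le_rad hK) D.idemN := by
      refine incOf_injective _ ?_
      rw [map_mul, map_mul, incOf_single, incOf_incTo, incOf_incTo, hv, ← hb, ← idem,
        D.single_mul_idem_eq]
    rw [← map_mul, h2, map_mul, hτe, mul_one, τ.asAlgebraHom_single_one]
  have hscal : ∀ r : rad hK, ∀ v : MonoidAlgebra ℂ (rad hK), incOf (rad hK) v = D.u r →
      ∃ c : ℂ, τ.asAlgebraHom v = c • LinearMap.id := by
    intro r v hv
    refine exists_smul_of_commute τ _ fun s => ?_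
    obtain ⟨v', b, hv', hs⟩ := hsplit s
    rw [← Module.End.mul_eq_comp, ← Module.End.mul_eq_comp, hs]
    have h1 : v * v' = v' * v := incOf_injective _ (by
      rw [map_mul, map_mul, hv, hv', D.mul_eq_om_smul (hK.comm r r.2.1 s s.2.1) (D.isLine_u r)
        (D.isLine_u s), s.2.2 r r.2.1, one_smul])
    have h2 : v * incTo D _ (le_rad hK) b = incTo D _ (le_rad hK) b * v := incOf_injective _ (by
      rw [map_mul, map_mul, hv, incOf_incTo, (D.isLine_u r).comm_inc])
    rw [← map_mul, ← map_mul, ← map_mul, ← mul_assoc, h1, mul_assoc, h2, ← mul_assoc]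
  have hnorm : classInner τN.character τN.character = 1 := by
    rw [classInner_character_eq_finrank]
    have hone : Module.finrank ℂ (Representation.IntertwiningMap τN τN) = 1 := by
      refine finrank_eq_one ⟨LinearMap.id, fun g => by rw [LinearMap.id_comp, LinearMap.comp_id]⟩ ?_ ?_
      · intro h0
        haveI := nontrivial_of_isIrreducible τ
        obtain ⟨v, hv⟩ := exists_ne (0 : Fin k → ℂ)
        exact hv (LinearMap.congr_fun (congrArg Representation.IntertwiningMap.toLinearMap h0) v)
      · intro F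
        have hinc : ∀ b, F.toLinearMap ∘ₗ τ.asAlgebraHom (incTo D _ (le_rad hK) b)
            = τ.asAlgebraHom (incTo D _ (le_rad hK) b) ∘ₗ F.toLinearMap := by
          intro b
          induction b using MonoidAlgebra.induction_on with
          | of n =>
            rw [MonoidAlgebra.of_apply, incTo, mapDomainAlgHom_apply, mapDomain_single,
              τ.asAlgebraHom_single_one]
            exact F.isIntertwining' n
          | add x y hx hy => simp only [map_add, LinearMap.add_comp, LinearMap.comp_add, hx, hy]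
          | smul r x hx => simp only [map_smul, LinearMap.smul_comp, LinearMap.comp_smul, hx]
        obtain ⟨c, hc⟩ := exists_smul_of_commute τ F.toLinearMap fun r => by
          obtain ⟨v, b, hv, hr⟩ := hsplit r
          obtain ⟨s, hs⟩ := hscal r v hv
          rw [hr, hs, Module.End.mul_eq_comp, LinearMap.smul_comp, LinearMap.id_comp,
            LinearMap.comp_smul, LinearMap.smul_comp, hinc]
        exact ⟨c, Representation.IntertwiningMap.ext_iff.2 (by rw [hc]; rfl)⟩
    rw [hone, Nat.cast_one]
  have hirr : IsIrrCharacter D.N τN.character :=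
    (isIrrCharacter_iff_norm_one (isCharacter_character τN)).2 hnorm
  intro n
  by_contra hne
  refine h (classInner_eq_zero_of_ne hirr (isIrrCharacter_character D.rep) fun he => hne ?_)
  exact congrFun he n

/-- Characters of the radical over the base are invariant under `K`. -/
theorem conj_rad_eq (hK : D.Sec K) {ξ : rad hK → ℂ} (hξ : IsIrrCharacter (rad hK) ξ)
    (hext : ∀ n : D.N, ξ (Subgroup.inclusion (le_rad hK) n) = D.rep.character n)
    {k : X} (hk : k ∈ K) (r r' : rad hK) (he : (r' : X) = k⁻¹ * r * k) : ξ r' = ξ r := by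
  classical
  letI : Fintype (rad hK) := Fintype.ofFinite _
  obtain ⟨m, τ, hτ, rfl⟩ := hξ
  have hτe := asAlgebraHom_incTo_idemN (le_rad hK) τ (a := 1) fun n => by rw [one_mul]; exact hext n
  obtain ⟨b, hb⟩ := (D.isLine_u k).sec
  obtain ⟨b', hb'⟩ := D.exists_w_mul_single k
  obtain ⟨c, hc⟩ := D.exists_w_mul_single (r : X)
  have hbb : D.inc b * D.inc b' = D.idem := by
    have h1 : D.inc b = single k⁻¹ 1 * D.u k := by
      rw [hb, ← mul_assoc, single_mul_single, inv_mul_cancel, one_mul, ← one_def, one_mul]
    rw [h1, ← hb', mul_assoc, ← mul_assoc (D.u k), D.u_mul_w, ← mul_assoc, D.single_mul_idem,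
      mul_assoc, single_mul_single, inv_mul_cancel, one_mul, ← one_def, mul_one]
  have hbb' : D.inc b' * D.inc b = D.idem := by
    rw [← hb', mul_assoc, ← hb, D.w_mul_u]
  have hcomm : D.u k * (single (r : X) 1 * D.idem) = single (r : X) 1 * D.idem * D.u k := by
    rw [D.single_mul_idem_eq, hc, ← mul_assoc, D.mul_eq_om_smul (hK.comm k hk r r.2.1)
      (D.isLine_u k) (D.isLine_u r), r.2.2 k hk, one_smul, mul_assoc, mul_assoc,
      (D.isLine_u k).comm_inc c]
  have hX : single (r' : X) 1 * D.idem = D.inc b * (single (r : X) 1 * D.idem) * D.inc b' := by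
    have h1 : single k⁻¹ 1 * (single (r : X) 1 * D.idem * D.u k)
        = D.inc b * (single (r : X) 1 * D.idem) := by
      rw [← hcomm, hb, mul_assoc (single k 1), ← mul_assoc, single_mul_single, inv_mul_cancel, one_mul,
        ← one_def, one_mul]
    rw [← h1, hb, mul_assoc (single k⁻¹ 1), mul_assoc (single (r : X) 1 * D.idem),
      mul_assoc (single k 1), hbb, mul_assoc (single (r : X) 1), ← mul_assoc D.idem,
      ← D.single_mul_idem k, mul_assoc (single k 1), D.idem_mul_self, ← mul_assoc, ← mul_assoc,
      single_mul_single, single_mul_single, one_mul, one_mul, he]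
  have hM : single r' 1 * incTo D _ (le_rad hK) D.idemN
      = incTo D _ (le_rad hK) b * (single r 1 * incTo D _ (le_rad hK) D.idemN)
        * incTo D _ (le_rad hK) b' := by
    refine incOf_injective _ ?_
    simp only [map_mul, incOf_single, incOf_incTo]
    exact hX
  have h2 := congrArg (fun y => LinearMap.trace ℂ _ (τ.asAlgebraHom y)) hM
  simp only [map_mul, hτe, mul_one, τ.asAlgebraHom_single_one] at h2
  show LinearMap.trace ℂ _ (τ r') = LinearMap.trace ℂ _ (τ r)
  rw [h2, LinearMap.trace_mul_cycle, ← map_mul,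
    show incTo D _ (le_rad hK) b' * incTo D _ (le_rad hK) b = incTo D _ (le_rad hK) D.idemN from
      incOf_injective _ (by simp only [map_mul, incOf_incTo]; exact hbb'),
    hτe, one_mul]

/-- A linear character fixing an irreducible extension is trivial. -/
theorem eq_one_of_linFun_mul {M : Type*} [Group M] [Finite M] {N : Subgroup M} [N.Normal]
    {η : M → ℂ} (hη : IsIrrCharacter M η) (hN : IsIrrCharacter N (fun n : N => η n))
    {l : M →* ℂˣ} (hl : ∀ n : N, l n = 1) (h : linFun l * η = η) : l = 1 := by
  classical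
  haveI := Fintype.ofFinite M
  letI : Fintype N := Fintype.ofFinite _
  refine MonoidHom.ext fun g => ?_
  have hg := congrFun (cosetAvg_mul_conj_self hη hN) g
  obtain ⟨n, hn⟩ : ∃ n : N, η ((n : M) * g) ≠ 0 := by
    by_contra hno
    push Not at hno
    simp [cosetAvg, hno] at hg
  have h1 := congrFun h ((n : M) * g)
  rw [Pi.mul_apply, linFun_apply, map_mul, hl n, one_mul] at h1
  refine Units.ext ?_
  rw [MonoidHom.one_apply, Units.val_one]
  exact mul_right_cancel₀ hn (by rw [h1, one_mul])

/-- An element of the section fixed modulo the radical lies in the radical. -/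
theorem Data.fix_rad (d : Data D K H σ) {k : X} (hk : k ∈ K)
    (h : ∀ a, k⁻¹ * σ a k ∈ rad d.sec) : k ∈ rad d.sec := by
  classical
  haveI : Fintype A := Fintype.ofFinite A
  haveI := rad_normal d.sec
  let N' : Subgroup K := D.N.subgroupOf K
  have hN' : N'.Normal := D.normal.subgroupOf K
  letI : CommGroup (K ⧸ N') :=
    { (inferInstance : Group (K ⧸ N')) with
      mul_comm := fun p q => by
        induction p using QuotientGroup.induction_on with
        | H p =>
          induction q using QuotientGroup.induction_on with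
          | H q =>
            rw [← QuotientGroup.mk_mul, ← QuotientGroup.mk_mul, QuotientGroup.eq,
              Subgroup.mem_subgroupOf]
            simpa [mul_assoc] using d.sec.comm q q.2 p p.2 }
  let q : K →* K ⧸ N' := QuotientGroup.mk' N'
  let e : A → K := fun a => ⟨σ a k, d.mapK a k hk⟩
  obtain ⟨p, hp⟩ := QuotientGroup.mk'_surjective N' (∏ a, q (e a))
  have hpN : (p : X) ∈ D.N := by
    refine d.fix p p.2 fun a => ?_
    let σK : K →* K :=
      { toFun := fun z => ⟨σ a z, d.mapK a z z.2⟩
        map_one' := Subtype.ext (by simp)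
        map_mul' := fun y z => Subtype.ext (by simp) }
    have hcomap : N' ≤ N'.comap σK := fun z hz => by
      rw [Subgroup.mem_comap, Subgroup.mem_subgroupOf]
      exact (d.map a).mem _ hz
    let ψ : (K ⧸ N') →* (K ⧸ N') := QuotientGroup.map N' N' σK hcomap
    have h1 : ψ (q p) = q p := by
      rw [show q p = ∏ b, q (e b) from hp, map_prod]
      refine (Finset.prod_congr rfl fun b _ => ?_).trans
        (Equiv.prod_comp (Equiv.mulLeft a) (fun b => q (e b)))
      exact congrArg q (Subtype.ext (by simp [σK, e]))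
    have h2 := QuotientGroup.eq.1 (h1.symm : (QuotientGroup.mk p : K ⧸ N') = QuotientGroup.mk (σK p))
    rw [Subgroup.mem_subgroupOf] at h2
    exact h2
  let Mq : Subgroup (K ⧸ N') := ((rad d.sec).subgroupOf K).map q
  have h3 : q ⟨k, hk⟩ ^ Nat.card A ∈ Mq := by
    have h4 : q ⟨k, hk⟩ ^ Nat.card A = (∏ a, q (e a)) * ∏ a, (q (e a))⁻¹ * q ⟨k, hk⟩ := by
      rw [← Finset.prod_mul_distrib, Finset.prod_congr rfl fun a _ => mul_inv_cancel_left _ _,
        Finset.prod_const, Finset.card_univ, Nat.card_eq_fintype_card]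
    rw [h4]
    refine mul_mem ?_ (Subgroup.prod_mem _ fun a _ => ?_)
    · rw [← hp, show QuotientGroup.mk' N' p = 1 from (QuotientGroup.eq_one_iff p).2
        (Subgroup.mem_subgroupOf.2 hpN)]
      exact one_mem _
    · rw [← map_inv, ← map_mul]
      refine Subgroup.mem_map_of_mem q (Subgroup.mem_subgroupOf.2 ?_)
      simpa [e, mul_inv_rev] using inv_mem (h a)
  have h5 : q ⟨k, hk⟩ ∈ Mq := by
    have hc : (orderOf (q ⟨k, hk⟩)).Coprime (Nat.card A) :=
      ((d.cop.coprime_dvd_right (Subgroup.card_subgroup_dvd_card K)).symm).coprime_dvd_left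
        ((orderOf_dvd_natCard _).trans (Subgroup.card_quotient_dvd_card N'))
    obtain ⟨i, hi⟩ := exists_pow_eq_self_of_coprime hc.symm
    rw [← hi]
    exact pow_mem h3 i
  obtain ⟨r, hr, hrk⟩ := h5
  have h6 := QuotientGroup.eq.1 (hrk : (QuotientGroup.mk r : K ⧸ N') = QuotientGroup.mk ⟨k, hk⟩)
  rw [Subgroup.mem_subgroupOf] at h6
  have h7 := mul_mem (Subgroup.mem_subgroupOf.1 hr) (le_rad d.sec h6)
  simpa using h7

end BaseRep

end CfsgLib.IsaacsCorr
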