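import Cfsg.Agent.Lib.IsaacsCorr.Extension

/-!
# Restriction from the product of the radical and `H`

On the characters over the fixed extension, restriction from a group `T = M H` to `H` is a
surjective isometry onto the characters of `H` over the base.
-/

set_option autoImplicit false
set_option linter.style.haveILetI false
set_option linter.unusedSectionVars false

open scoped ComplexConjugate
open Cfsg CfsgLib.CharTheory CfsgLib.Frobenius CfsgLib.Clifford MonoidAlgebra

namespace CfsgLib.IsaacsCorr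

variable {X : Type*} [Group X] [Fintype X] {A : Type*} [Group A] [Finite A]

namespace BaseRep

variable {D : BaseRep X} {K H : Subgroup X} {σ : A →* MulAut X} {d : Data D K H σ}
  {D' : BaseRep X}

/-- The representation at the radical is spanned by the base. -/
theorem Upper.exists_absorb (U : Upper d D') (r : D'.N) :
    ∃ b : MonoidAlgebra ℂ D.N, single r 1 * D'.idemN = incTo D D'.N U.le b * D'.idemN := by
  let τN : Representation ℂ D.N (Fin D'.d → ℂ) := D'.rep.comp (Subgroup.inclusion U.le)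
  obtain ⟨S⟩ := nonempty_equiv_of_character_eq D.rep τN (funext fun n => (U.res n).symm)
  have hS : ∀ b, D'.rep.asAlgebraHom (incTo D _ U.le b) ∘ₗ S.toLinearEquiv.toLinearMap
      = S.toLinearEquiv.toLinearMap ∘ₗ D.rep.asAlgebraHom b := by
    intro b
    induction b using MonoidAlgebra.induction_on with
    | of n =>
      rw [MonoidAlgebra.of_apply, incTo, mapDomainAlgHom_apply, mapDomain_single,
        D'.rep.asAlgebraHom_single_one, D.rep.asAlgebraHom_single_one]
      exact (LinearMap.ext fun v => LinearMap.congr_fun (S.isIntertwining' n) v).symm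
    | add x y hx hy => simp only [map_add, LinearMap.add_comp, LinearMap.comp_add, hx, hy]
    | smul c x hx => simp only [map_smul, LinearMap.smul_comp, LinearMap.comp_smul, hx]
  obtain ⟨b, hb⟩ := D.asAlgebraHom_surjective
    (S.toLinearEquiv.symm.toLinearMap ∘ₗ D'.rep r ∘ₗ S.toLinearEquiv.toLinearMap)
  refine ⟨b, D'.mul_idemN_eq_of_apply_eq (LinearMap.ext fun v => ?_)⟩
  obtain ⟨w, rfl⟩ := S.toLinearEquiv.surjective v
  have h := LinearMap.congr_fun (hS b) w
  rw [LinearMap.comp_apply, LinearMap.comp_apply, hb] at h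
  rw [D'.rep.asAlgebraHom_single_one]
  simp only [LinearMap.comp_apply, LinearEquiv.coe_coe] at h ⊢
  exact (S.toLinearEquiv.apply_symm_apply _).symm.trans h.symm

variable {T : Subgroup X} [Fintype T]

theorem apply_eq_absorbed {M N T : Subgroup X} {V : Type*} [AddCommGroup V] [Module ℂ V]
    (ρ : Representation ℂ T V) {e : MonoidAlgebra ℂ M} (hle : M ≤ T) (hN : N ≤ M) {r : M}
    {b : MonoidAlgebra ℂ N}
    (hr : single r 1 * e = mapDomainAlgHom ℂ ℂ (Subgroup.inclusion hN) b * e)
    (he : ρ.asAlgebraHom (mapDomainAlgHom ℂ ℂ (Subgroup.inclusion hle) e) = 1) :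
    ρ (Subgroup.inclusion hle r) = ρ.asAlgebraHom
      (mapDomainAlgHom ℂ ℂ (Subgroup.inclusion hle)
        (mapDomainAlgHom ℂ ℂ (Subgroup.inclusion hN) b)) := by
  have h := congrArg (fun z => ρ.asAlgebraHom (mapDomainAlgHom ℂ ℂ (Subgroup.inclusion hle) z)) hr
  simp only [map_mul, he, mul_one] at h
  rw [← h]
  simp

/-- A map commuting with `H` commutes with `T`. -/
theorem Upper.intertwine (U : Upper d D') (hle : D'.N ≤ T) (hHT : H ≤ T)
    (hgen : ∀ x ∈ T, ∃ r ∈ D'.N, ∃ h ∈ H, x = r * h)
    {V W : Type*} [AddCommGroup V] [Module ℂ V] [FiniteDimensional ℂ V] [AddCommGroup W]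
    [Module ℂ W] [FiniteDimensional ℂ W] (τ : Representation ℂ T V) (τ' : Representation ℂ T W)
    {a a' : ℂ} (ha : ∀ r : D'.N, τ.character (Subgroup.inclusion hle r) = a * D'.rep.character r)
    (ha' : ∀ r : D'.N, τ'.character (Subgroup.inclusion hle r) = a' * D'.rep.character r)
    (F : V →ₗ[ℂ] W)
    (hF : ∀ h : H, F ∘ₗ τ (Subgroup.inclusion hHT h) = τ' (Subgroup.inclusion hHT h) ∘ₗ F)
    (x : T) : F ∘ₗ τ x = τ' x ∘ₗ F := by
  have hb : ∀ b : MonoidAlgebra ℂ D.N,
      F ∘ₗ τ.asAlgebraHom (incTo D' T hle (incTo D _ U.le b))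
        = τ'.asAlgebraHom (incTo D' T hle (incTo D _ U.le b)) ∘ₗ F := by
    intro b
    induction b using MonoidAlgebra.induction_on with
    | of n =>
      simp only [MonoidAlgebra.of_apply, incTo, mapDomainAlgHom_apply, mapDomain_single,
        Representation.asAlgebraHom_single_one]
      exact hF ⟨(n : X), d.le n.2⟩
    | add x y hx hy => simp only [map_add, LinearMap.add_comp, LinearMap.comp_add, hx, hy]
    | smul c x hx => simp only [map_smul, LinearMap.smul_comp, LinearMap.comp_smul, hx]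
  have hM : ∀ r : D'.N,
      F ∘ₗ τ (Subgroup.inclusion hle r) = τ' (Subgroup.inclusion hle r) ∘ₗ F := by
    intro r
    obtain ⟨b, hr⟩ := U.exists_absorb r
    rw [apply_eq_absorbed τ hle U.le hr (asAlgebraHom_incTo_idemN hle τ ha),
      apply_eq_absorbed τ' hle U.le hr (asAlgebraHom_incTo_idemN hle τ' ha')]
    exact hb b
  obtain ⟨r, hr, h, hh, hx⟩ := hgen x x.2
  have hx' : x = Subgroup.inclusion hle ⟨r, hr⟩ * Subgroup.inclusion hHT ⟨h, hh⟩ := Subtype.ext hx
  rw [hx', map_mul, map_mul, Module.End.mul_eq_comp, Module.End.mul_eq_comp, ← LinearMap.comp_assoc,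
    hM, LinearMap.comp_assoc, hF, ← LinearMap.comp_assoc]

variable [Fintype H]

/-- Restriction to `H` is an isometry. -/
theorem Upper.classInner_res (U : Upper d D') (hle : D'.N ≤ T) (hHT : H ≤ T)
    (hgen : ∀ x ∈ T, ∃ r ∈ D'.N, ∃ h ∈ H, x = r * h) {χ ξ : T → ℂ} (hχ : IsCharacter T χ)
    (hξ : IsCharacter T ξ) {a a' : ℂ}
    (ha : ∀ r : D'.N, χ (Subgroup.inclusion hle r) = a * D'.rep.character r)
    (ha' : ∀ r : D'.N, ξ (Subgroup.inclusion hle r) = a' * D'.rep.character r) :
    classInner (fun h : H => χ (Subgroup.inclusion hHT h))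
      (fun h : H => ξ (Subgroup.inclusion hHT h)) = classInner χ ξ := by
  obtain ⟨n, τ', rfl⟩ := hχ
  obtain ⟨m, τ, rfl⟩ := hξ
  let ρ : Representation ℂ H (Fin m → ℂ) := τ.comp (Subgroup.inclusion hHT)
  let ρ' : Representation ℂ H (Fin n → ℂ) := τ'.comp (Subgroup.inclusion hHT)
  show classInner ρ'.character ρ.character = classInner τ'.character τ.character
  rw [classInner_character_eq_finrank, classInner_character_eq_finrank]
  let e : Representation.IntertwiningMap τ τ' ≃ₗ[ℂ] Representation.IntertwiningMap ρ ρ' :=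
    { toFun := fun F => ⟨F.toLinearMap, fun h => F.isIntertwining' _⟩
      invFun := fun F => ⟨F.toLinearMap, U.intertwine hle hHT hgen τ τ' ha' ha F.toLinearMap
        F.isIntertwining'⟩
      left_inv := fun F => rfl
      right_inv := fun F => rfl
      map_add' := fun F G => rfl
      map_smul' := fun c F => rfl }
  rw [e.finrank_eq]

/-- Every character of `H` over the base is a restriction. -/
theorem Upper.exists_res (U : Upper d D') (hle : D'.N ≤ T) (hHT : H ≤ T)
    (hgen : ∀ x ∈ T, ∃ r ∈ D'.N, ∃ h ∈ H, x = r * h) (ψ : IrrCharacter H)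
    (hψ : ∃ a : ℂ, ∀ n : D.N, (ψ : H → ℂ) ⟨(n : X), d.le n.2⟩ = a * D.rep.character n) :
    ∃ ξ : IrrCharacter T,
      (∃ a : ℂ, ∀ r : D'.N, (ξ : T → ℂ) (Subgroup.inclusion hle r) = a * D'.rep.character r) ∧
      (fun h : H => (ξ : T → ℂ) (Subgroup.inclusion hHT h)) = (ψ : H → ℂ) := by
  classical
  obtain ⟨a, ha⟩ := hψ
  have ha0 : a ≠ 0 := fun h0 => apply_one_ne_zero_of_isIrr ψ.2 (by
    have h1 := ha 1
    rw [h0, zero_mul] at h1
    exact h1)
  let H0 : Subgroup T := H.subgroupOf T
  letI : Fintype H0 := Fintype.ofFinite _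
  let e : H0 ≃* H := Subgroup.subgroupOfEquivOfLe hHT
  let ψ0 : H0 → ℂ := fun h => (ψ : H → ℂ) (e h)
  have hψ0 : IsIrrCharacter H0 ψ0 := isIrrCharacter_comp_mulEquiv ψ.2 e
  set F := indFun H0 ψ0 with hFdef
  set c : ℂ := (Nat.card H0 : ℂ)⁻¹ * Nat.card T * a with hc
  have hc0 : c ≠ 0 := by
    simp [hc, ha0]
  have hval : ∀ r : D'.N, F (Subgroup.inclusion hle r)
      = if h : (r : X) ∈ D.N then c * D.rep.character ⟨r, h⟩ else 0 := by
    intro r
    rw [hFdef, indFun]
    split_ifs with h
    · rw [Finset.sum_congr rfl fun (x : T) _ => show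
        extendByZero H0 ψ0 (x⁻¹ * Subgroup.inclusion hle r * x) = a * D.rep.character ⟨r, h⟩ by
          have hm : ((x⁻¹ * Subgroup.inclusion hle r * x : T) : X) ∈ D.N := by
            simpa using D.normal.conj_mem _ h (x : X)⁻¹
          rw [extendByZero_of_mem H0 ψ0 (Subgroup.mem_subgroupOf.2 (d.le hm))]
          refine (ha ⟨_, hm⟩).trans ?_
          rw [D.inv (x : X)⁻¹ ⟨r, h⟩ ⟨_, hm⟩ (by simp)],
        Finset.sum_const, Finset.card_univ, nsmul_eq_mul, hc, Nat.card_eq_fintype_card (α := T)]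
      ring
    · rw [Finset.sum_eq_zero fun x _ => extendByZero_of_not_mem H0 ψ0 fun hm => h ?_, mul_zero]
      rw [Subgroup.mem_subgroupOf] at hm
      have hM : ((x⁻¹ * Subgroup.inclusion hle r * x : T) : X) ∈ D'.N := by
        simpa using D'.normal.conj_mem _ r.2 (x : X)⁻¹
      have hN := d.inf _ ((U.mem _).1 hM).1 hm
      simpa [mul_assoc] using D.normal.conj_mem _ hN (x : X)
  have hsum : ∑ r : D'.N, F (Subgroup.inclusion hle r) * conj (D'.rep.character r)
      = c * (Nat.card D.N : ℂ) := by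
    rw [← Finset.sum_subset (Finset.subset_univ (Finset.univ.image (Subgroup.inclusion U.le)))
      fun r _ hr => ?_, Finset.sum_image fun x _ y _ h => Subgroup.inclusion_injective _ h]
    · have h1 : classInner D.rep.character D.rep.character = 1 :=
        classInner_self_of_isIrr (isIrrCharacter_character D.rep)
      rw [classInner] at h1
      rw [← mul_one (c * (Nat.card D.N : ℂ)), ← h1, mul_assoc c, ← mul_assoc (Nat.card D.N : ℂ),
        mul_inv_cancel₀ (Nat.cast_ne_zero.2 Nat.card_pos.ne'), one_mul, Finset.mul_sum]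
      refine Finset.sum_congr rfl fun n _ => ?_
      rw [hval, U.res n, dif_pos (show ((Subgroup.inclusion U.le n : D'.N) : X) ∈ D.N from n.2),
        ← mul_assoc]
      rfl
    · rw [hval, dif_neg fun h => hr (Finset.mem_image.2 ⟨⟨r, h⟩, Finset.mem_univ _, rfl⟩),
        zero_mul]
  have hne : classInner (fun r : D'.N => F (Subgroup.inclusion hle r)) D'.rep.character ≠ 0 := by
    rw [classInner, hsum]
    simp [hc0]
  letI : Fintype (IrrCharacter T) := Fintype.ofFinite _
  obtain ⟨m, hm⟩ := IsCharacter.exists_sum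
    (isCharacter_indFun H0 ψ0 (IsIrrCharacter.isCharacter hψ0))
  obtain ⟨ξ, hmξ, hξ⟩ : ∃ ξ : IrrCharacter T, m ξ ≠ 0 ∧
      classInner (fun r : D'.N => (ξ : T → ℂ) (Subgroup.inclusion hle r)) D'.rep.character ≠ 0 := by
    by_contra hno
    push Not at hno
    refine hne ?_
    rw [show (fun r : D'.N => F (Subgroup.inclusion hle r))
        = ∑ ξ : IrrCharacter T, (m ξ : ℂ) • fun r : D'.N =>
            (ξ : T → ℂ) (Subgroup.inclusion hle r) from
      funext fun r => by simpa [Finset.sum_apply] using congrFun hm (Subgroup.inclusion hle r),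
      classInner_sum_left]
    refine Finset.sum_eq_zero fun ξ _ => ?_
    rw [classInner_smul_left]
    rcases eq_or_ne (m ξ) 0 with h0 | h0
    · rw [h0, Nat.cast_zero, zero_mul]
    · rw [hno ξ h0, mul_zero]
  have hinv : ∀ g ∈ T, conjChar D'.N D'.rep.character g = D'.rep.character := fun g _ =>
    funext fun r => D'.inv g r _ rfl
  have hres := res_eq_of_invariant_of_le hle (isIrrCharacter_character D'.rep) hinv ξ.2 hξ
  refine ⟨ξ, ⟨_, fun r => congrFun hres r⟩, ?_⟩
  have hξC : IsCharacter H (fun h : H => (ξ : T → ℂ) (Subgroup.inclusion hHT h)) :=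
    CfsgLib.Coherence.isCharacter_comp (IsIrrCharacter.isCharacter ξ.2) (Subgroup.inclusion hHT)
  have hirr : IsIrrCharacter H (fun h : H => (ξ : T → ℂ) (Subgroup.inclusion hHT h)) :=
    (isIrrCharacter_iff_norm_one hξC).2 (by
      rw [U.classInner_res hle hHT hgen (IsIrrCharacter.isCharacter ξ.2)
        (IsIrrCharacter.isCharacter ξ.2) (fun r => congrFun hres r) (fun r => congrFun hres r),
        classInner_self_of_isIrr ξ.2])
  by_contra hne'
  refine hmξ ?_
  have h1 : classInner F (ξ : T → ℂ) = (m ξ : ℂ) := by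
    rw [hFdef, hm]; exact classInner_sum_irr _ ξ
  rw [classInner_indFun H0 ψ0 _ (IsIrrCharacter.isClassFunction ξ.2), classInner_conj_symm] at h1
  have h2 : classInner (fun h : H0 => (ξ : T → ℂ) h) ψ0
      = classInner (fun h : H => (ξ : T → ℂ) (Subgroup.inclusion hHT h)) (ψ : H → ℂ) :=
    classInner_comp_mulEquiv e (fun h : H => (ξ : T → ℂ) (Subgroup.inclusion hHT h)) (ψ : H → ℂ)
  rw [h2, classInner_eq_zero_of_ne hirr ψ.2 hne', map_zero] at h1
  exact_mod_cast h1.symm

end BaseRep

end CfsgLib.IsaacsCorr
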